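import Cfsg.Agent.H89.ClassSizesOneMMnLocal

/-!
# Class sizes `1`, `m`, `m n`: `m` has only one prime divisor when centralizers are abelian
-/

namespace Cfsg.Agent.H89

open Subgroup
open scoped Pointwise

variable {G : Type*} [Group G] [Finite G]

theorem IsSylowIn.conj_top {p : ℕ} {P : Subgroup G} (hP : IsSylowIn p P ⊤) (c : G) :
    IsSylowIn p (MulAut.conj c • P) ⊤ :=
  ⟨le_top, by rw [H20.card_conj_smul, hP.2]⟩

theorem IsSylowIn.smul {p : ℕ} {S H : Subgroup G} (hS : IsSylowIn p S H) (c : G) :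
    IsSylowIn p (MulAut.conj c • S) (MulAut.conj c • H) := by
  exact ⟨pointwise_smul_le_pointwise_smul_iff.mpr hS.1, by
    rw [H20.card_conj_smul, H20.card_conj_smul, hS.2]⟩

theorem IsSylowIn.inf_center {p : ℕ} [Fact p.Prime] {P : Subgroup G} (hP : IsSylowIn p P ⊤) :
    IsSylowIn p (P ⊓ center G) (center G) := by
  obtain ⟨S, hS, -⟩ :=
    exists_isSylowIn (IsPGroup.of_bot : IsPGroup p (⊥ : Subgroup G)) (bot_le : ⊥ ≤ center G)
  have hSP : S ≤ P ⊓ center G := fun x hx => ⟨hP.mem_of_le_cz (IsPEl.of_mem hS.isPGroup hx)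
    (fun a _ => mem_cz.mpr (mem_center_iff.mp (hS.1 hx) a)), hS.1 hx⟩
  exact ⟨inf_le_right, (hS.eq_of_le (hP.isPGroup.to_le inf_le_left) hSP inf_le_right) ▸ hS.2⟩

namespace OneMMn

variable {m n : ℕ} (h : OneMMn G m n)
include h

/-- With abelian centralizers, `C(w)/Z` has `p`-part of order `p` and is normalised by a
`p`-element inducing no fixed points. -/
theorem local_data (hab : ∀ p : ℕ, p.Prime → p ∣ m → ∀ w : G, IsPEl p w → w ∉ center G →
      ∀ a ∈ cz w, ∀ b ∈ cz w, a * b = b * a)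
    {p s : ℕ} [hp : Fact p.Prime] [hs : Fact s.Prime] (hpm : p ∣ m) (hsm : s ∣ m) (hne : p ≠ s) :
    (∀ g : G, g ∉ center G →
        (Nat.card (cz g)).factorization p = (Nat.card (center G)).factorization p + 1) ∧
      ∃ w x : G, IsPEl p w ∧ w ∉ center G ∧ IsPEl p x ∧
        x ∈ normalizer (cz w : Set G) ∧ x ∉ cz w := by
  obtain ⟨P, hP, -⟩ := exists_isSylowIn (IsPGroup.of_bot : IsPGroup p (⊥ : Subgroup G)) (bot_le : (⊥ : Subgroup G) ≤ ⊤)
  have hPZ : ¬ P ≤ center G := by
    intro hle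
    obtain ⟨g, hg⟩ := h.exists_mn
    have hd : p ∣ (cz g).index := hg ▸ hpm.mul_right n
    have h1 := (index_dvd_of_le (hle.trans (center_le_cz g)) : (cz g).index ∣ P.index)
    have h2 := congrArg (fun k => k.factorization p) P.card_mul_index
    simp only [Nat.factorization_mul Nat.card_pos.ne' index_ne_zero_of_finite, Finsupp.add_apply] at h2
    have h3 : (Nat.card P).factorization p = (Nat.card G).factorization p := by
      rw [hP.2, card_top, hp.out.factorization_pow, Finsupp.single_eq_same]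
    have := (hp.out.dvd_iff_one_le_factorization index_ne_zero_of_finite).mp (hd.trans h1)
    omega
  obtain ⟨w, hwP, hwZ, hwp', hcomm⟩ := exists_central_mod_center hP.isPGroup le_rfl
    (fun x hx a ha => P.mul_mem (P.mul_mem hx ha) (P.inv_mem hx)) hPZ
  have hwp := IsPEl.of_mem hP.isPGroup hwP
  have habw := hab p hp.out hpm w hwp hwZ
  obtain ⟨v, hvw, hvZ, hv⟩ := h.exists_pel hsm hwZ
  obtain ⟨hm1, hX, hidx, hPn⟩ := h.index_prime_of_normalized hpm hwp hwZ hwp' hP hcomm
    (fun t ht _ a ha => mem_cz.mpr (habw a ha t ht)) hne.symm hvw hvZ hv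
  set X := P ⊓ cz w with hXdef
  -- another abelian subgroup of index `p`
  obtain ⟨Y, t, htp, htZ, hY, hYP, hYX⟩ : ∃ (Y : Subgroup G) (t : G), IsPEl p t ∧ t ∉ center G ∧
      IsSylowIn p Y (cz t) ∧ Y ≤ P ∧ Y ≠ X := by
    by_contra hcon
    push Not at hcon
    refine not_cover hwZ fun g hg => ?_
    obtain ⟨t, htg, htZ, htp⟩ := h.exists_pel hpm hg
    obtain ⟨S, hS, htS⟩ := exists_isSylowIn_mem htp (self_mem_cz t)
    obtain ⟨S', hS', hSS'⟩ := exists_isSylowIn hS.isPGroup (le_top : S ≤ ⊤)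
    obtain ⟨c, -, hc⟩ := hS'.exists_conj hP
    have hY := hS.smul c
    rw [smul_cz] at hY
    have heq := hcon _ _ (htp.conj c) (conj_notMem_center htZ) hY
      (hc ▸ pointwise_smul_le_pointwise_smul_iff.mpr hSS')
    have htw : c * t * c⁻¹ ∈ cz w := by
      have h1 : c * t * c⁻¹ ∈ MulAut.conj c • S := smul_mem_pointwise_smul t (MulAut.conj c) S htS
      rw [heq] at h1
      exact h1.2
    have hgt : c * g * c⁻¹ ∈ cz (c * t * c⁻¹) := conj_mem_cz_iff.mpr (mem_cz_comm.mp htg)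
    refine ⟨c⁻¹, ?_⟩
    rw [← conj_mem_cz_iff (c := c)]
    have e : c * (c⁻¹ * w * c⁻¹⁻¹) * c⁻¹ = w := by group
    rw [e]
    exact mem_cz.mpr (hab p hp.out hpm _ (htp.conj c) (conj_notMem_center htZ) _ hgt w
      (mem_cz_comm.mp htw))
  have hXc : Nat.card X = Nat.card Y := by
    have h1 := h.factorization_card hp.out hpm hwZ
    have h2 := h.factorization_card hp.out hpm htZ
    rw [hX.2, hY.2, show (Nat.card (cz w)).factorization p = (Nat.card (cz t)).factorization p by omega]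
  obtain ⟨x, hxY, hxX⟩ : ∃ x ∈ Y, x ∉ X := by
    by_contra hcon
    push Not at hcon
    exact hYX (Subgroup.eq_of_le_of_card_ge hcon hXc.le)
  have hXY : X ⊔ Y = P := by
    refine le_antisymm (sup_le inf_le_left hYP) ?_
    rw [← relIndex_eq_one]
    have h1 : X.relIndex (X ⊔ Y) * (X ⊔ Y).relIndex P = p :=
      (relIndex_mul_relIndex X _ P le_sup_left (sup_le inf_le_left hYP)).trans hidx
    rcases (Nat.dvd_prime hp.out).mp ⟨_, h1.symm⟩ with h2 | h2
    · exact absurd ((relIndex_eq_one.mp h2) (mem_sup_right hxY)) hxX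
    · rw [h2] at h1
      exact Nat.eq_of_mul_eq_mul_left hp.out.pos (h1.trans (mul_one p).symm)
  have habt := hab p hp.out hpm t htp htZ
  have hinf : X ⊓ Y = P ⊓ center G := by
    apply le_antisymm
    · intro e he
      refine ⟨he.1.1, ?_⟩
      by_contra heZ
      have hPe : P ≤ cz e := by
        rw [← hXY]
        exact sup_le (fun a ha => mem_cz.mpr (habw a ha.2 e he.1.2))
          (fun a ha => mem_cz.mpr (habt a (hY.1 ha) e (hY.1 he.2)))
      have h1 := Nat.le_of_dvd (pow_pos hp.out.pos _) (card_dvd_ordProj hP.isPGroup hPe)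
      rw [hP.2, card_top, Nat.pow_le_pow_iff_right hp.out.one_lt,
        ← h.factorization_card hp.out hpm heZ] at h1
      omega
    · intro e he
      exact ⟨⟨he.1, center_le_cz w he.2⟩, hY.mem_of_commute (IsPEl.of_mem hP.isPGroup he.1)
        (center_le_cz t he.2) (fun a _ => mem_cz.mpr (mem_center_iff.mp he.2 a))⟩
  have hcardX : Nat.card X = p * Nat.card (P ⊓ center G : Subgroup G) := by
    have h2 : Y.relIndex P = p := by
      have e1 : Nat.card Y * Y.relIndex P = Nat.card P := by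
        rw [← Nat.card_congr (subgroupOfEquivOfLe hYP).toEquiv]; exact card_mul_index _
      have e2 : Nat.card X * X.relIndex P = Nat.card P := by
        rw [← Nat.card_congr (subgroupOfEquivOfLe (inf_le_left : X ≤ P)).toEquiv]; exact card_mul_index _
      rw [hidx, hXc, ← e1] at e2
      exact (Nat.eq_of_mul_eq_mul_left Nat.card_pos e2).symm
    have h3 : Y.relIndex X ≤ p :=
      h2 ▸ relIndex_le_of_le_right inf_le_left (h2.symm ▸ hp.out.ne_zero)
    obtain ⟨k, hk⟩ := (hX.isPGroup).index (Y.subgroupOf X)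
    replace hk : Y.relIndex X = p ^ k := hk
    have hk0 : k ≠ 0 := by
      rintro rfl
      have : X ≤ Y := relIndex_eq_one.mp (by simpa using hk)
      exact hYX (Subgroup.eq_of_le_of_card_ge this hXc.ge).symm
    have h4 : Y.relIndex X = p := le_antisymm h3 (hk ▸ Nat.le_self_pow hk0 p)
    have h5 : Nat.card (X ⊓ Y : Subgroup G) * (X ⊓ Y).relIndex X = Nat.card X := by
      rw [← Nat.card_congr (subgroupOfEquivOfLe (inf_le_left : X ⊓ Y ≤ X)).toEquiv]
      exact card_mul_index _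
    rw [inf_relIndex_left, h4, hinf, mul_comm] at h5
    exact h5.symm
  refine ⟨fun g hg => ?_, w, x, hwp, hwZ, IsPEl.of_mem hY.isPGroup hxY, hPn (hYP hxY),
    fun hxw => hxX ⟨hYP hxY, hxw⟩⟩
  have h1 := h.factorization_card hp.out hpm hwZ
  have h2 := h.factorization_card hp.out hpm hg
  rw [hX.2, hP.inf_center.2, ← pow_succ'] at hcardX
  have := Nat.pow_right_injective hp.out.two_le hcardX
  omega

/-- A prime `p` and another prime `s` dividing `m`: `p` divides `s - 1`. -/
theorem modEq_one_of_two_primes (hab : ∀ p : ℕ, p.Prime → p ∣ m → ∀ w : G, IsPEl p w → w ∉ center G →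
      ∀ a ∈ cz w, ∀ b ∈ cz w, a * b = b * a)
    {p s : ℕ} [hp : Fact p.Prime] [hs : Fact s.Prime] (hpm : p ∣ m) (hsm : s ∣ m) (hne : p ≠ s) :
    s ≡ 1 [MOD p] := by
  obtain ⟨-, w, x, hwp, hwZ, hxp, hxn, hxw⟩ := h.local_data hab hpm hsm hne
  obtain ⟨hcard, -⟩ := h.local_data hab hsm hpm hne.symm
  have habw := hab p hp.out hpm w hwp hwZ
  obtain ⟨U, hU, -⟩ := exists_isSylowIn (IsPGroup.of_bot : IsPGroup s (⊥ : Subgroup G)) (bot_le : ⊥ ≤ cz w)
  have hUn : ∀ g ∈ zpowers x, ∀ a ∈ U, g * a * g⁻¹ ∈ U := by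
    intro g hg a ha
    have hgn : g ∈ normalizer (cz w : Set G) := zpowers_le.mpr hxn hg
    have hga : g * a * g⁻¹ ∈ cz w := (mem_normalizer_iff.mp hgn a).mp (hU.1 ha)
    exact hU.mem_of_commute ((IsPEl.of_mem hU.isPGroup ha).conj g) hga
      (fun b hb => mem_cz.mpr (habw b hb _ hga))
  letI act : MulAction (zpowers x) U :=
    { smul := fun g a => ⟨(g : G) * a * (g : G)⁻¹, hUn g g.2 a a.2⟩
      one_smul := fun a => Subtype.ext (show (1 : G) * a * 1⁻¹ = a by simp)
      mul_smul := fun g k a => Subtype.ext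
        (show (g : G) * k * a * ((g : G) * k)⁻¹ = g * (k * a * (k : G)⁻¹) * (g : G)⁻¹ by
          simp [mul_assoc]) }
  have hfix : ∀ a : U, a ∈ MulAction.fixedPoints (zpowers x) U ↔ (a : G) ∈ center G := by
    intro a
    constructor
    · intro ha
      by_contra haZ
      have hxa : x * (a : G) * x⁻¹ = a := congrArg Subtype.val (ha ⟨x, mem_zpowers x⟩)
      have hwa : w ∈ cz (a : G) := mem_cz_comm.mp (hU.1 a.2)
      exact hxw (mem_cz.mpr (hab s hs.out hsm a (IsPEl.of_mem hU.isPGroup a.2) haZ x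
        (mem_cz.mpr (mul_inv_eq_iff_eq_mul.mp hxa)) w hwa))
    · intro ha g
      exact Subtype.ext (show (g : G) * a * (g : G)⁻¹ = a by
        rw [mem_center_iff.mp ha (g : G), mul_inv_cancel_right])
  have h1 := hxp.isPGroup_zpowers.card_modEq_card_fixedPoints U
  obtain ⟨P, hP, -⟩ := exists_isSylowIn (IsPGroup.of_bot : IsPGroup s (⊥ : Subgroup G)) (bot_le : (⊥ : Subgroup G) ≤ ⊤)
  obtain ⟨T, hT, -⟩ :=
    exists_isSylowIn (IsPGroup.of_bot : IsPGroup s (⊥ : Subgroup G)) (bot_le : ⊥ ≤ center G)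
  have hTU : ∀ a : G, a ∈ U ∧ a ∈ center G ↔ a ∈ T := by
    intro a
    constructor
    · rintro ⟨ha, haZ⟩
      exact hT.mem_of_commute (IsPEl.of_mem hU.isPGroup ha) haZ
        (fun b _ => mem_cz.mpr (mem_center_iff.mp haZ b))
    · intro ha
      exact ⟨hU.mem_of_commute (IsPEl.of_mem hT.isPGroup ha) (center_le_cz w (hT.1 ha))
        (fun b _ => mem_cz.mpr (mem_center_iff.mp (hT.1 ha) b)), hT.1 ha⟩
  have h2 : Nat.card (MulAction.fixedPoints (zpowers x) U) = Nat.card T :=
    Nat.card_congr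
      { toFun := fun a => ⟨(a.1 : G), (hTU _).mp ⟨a.1.2, (hfix _).mp a.2⟩⟩
        invFun := fun a => ⟨⟨a, ((hTU _).mpr a.2).1⟩, (hfix _).mpr ((hTU _).mpr a.2).2⟩
        left_inv := fun _ => rfl
        right_inv := fun _ => rfl }
  rw [h2, hU.2, hT.2, hcard w hwZ, pow_succ] at h1
  have hco : Nat.gcd p (s ^ (Nat.card (center G)).factorization s) = 1 :=
    ((Nat.coprime_primes hp.out hs.out).mpr hne).pow_right _
  exact Nat.ModEq.cancel_left_of_coprime hco (h1.trans (by rw [mul_one]))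

/-- With abelian centralizers, `m` is a prime power. -/
theorem eq_prime_of_abelian (hab : ∀ p : ℕ, p.Prime → p ∣ m → ∀ w : G, IsPEl p w → w ∉ center G →
      ∀ a ∈ cz w, ∀ b ∈ cz w, a * b = b * a)
    {p s : ℕ} (hp : p.Prime) (hs : s.Prime) (hpm : p ∣ m) (hsm : s ∣ m) : p = s := by
  by_contra hne
  haveI := Fact.mk hp
  haveI := Fact.mk hs
  have h1 := h.modEq_one_of_two_primes hab hpm hsm hne
  have h2 := h.modEq_one_of_two_primes hab hsm hpm (Ne.symm hne)
  have h1' := Nat.le_of_dvd (by have := hs.two_le; omega) ((Nat.modEq_iff_dvd' hs.one_lt.le).mp h1.symm)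
  have h2' := Nat.le_of_dvd (by have := hp.two_le; omega) ((Nat.modEq_iff_dvd' hp.one_lt.le).mp h2.symm)
  have := hs.two_le
  omega

end OneMMn

end Cfsg.Agent.H89
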