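import Cfsg.Agent.H89.ClassSizesOneMMnMulti
import Cfsg.Agent.H25.Burnside
import Cfsg.Agent.H43.IndexPrime

/-!
# Class sizes `1`, `m`, `m n`: structure of the group
-/

namespace Cfsg.Agent.H89

open Subgroup
open scoped Pointwise

variable {G : Type*} [Group G] [Finite G]

theorem not_dvd_index_of_sylow_le {q : ℕ} [hq : Fact q.Prime] {Q H : Subgroup G}
    (hQ : IsSylowIn q Q ⊤) (hle : Q ≤ H) : ¬ q ∣ H.index := by
  intro hd
  have h1 := congrArg (fun k => k.factorization q) Q.card_mul_index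
  simp only [Nat.factorization_mul Nat.card_pos.ne' index_ne_zero_of_finite, Finsupp.add_apply] at h1
  have h2 : (Nat.card Q).factorization q = (Nat.card G).factorization q := by
    rw [hQ.2, card_top, hq.out.factorization_pow, Finsupp.single_eq_same]
  have := (hq.out.dvd_iff_one_le_factorization index_ne_zero_of_finite).mp
    (hd.trans (index_dvd_of_le hle))
  omega

theorem not_dvd_orderOf_of_pel {p r : ℕ} (hp : p.Prime) (hr : r.Prime) (hne : r ≠ p) {t : G}
    (ht : IsPEl r t) : ¬ p ∣ orderOf t := by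
  obtain ⟨k, hk⟩ := ht
  rw [hk]
  exact fun hd => hne ((Nat.prime_dvd_prime_iff_eq hp hr).mp (hp.dvd_of_dvd_pow hd)).symm

/-- An element inverted-free lemma: if `x ^ i * b * x ^ (-i) = k ^ i * b` and `k` has order prime to
`orderOf x`, then `k = 1`. -/
theorem eq_one_of_conj_eq_mul {x b k : G} (hk : x * k = k * x) (he : x * b * x⁻¹ = k * b)
    (hco : (orderOf k).Coprime (orderOf x)) : k = 1 := by
  have h1 : ∀ i : ℕ, x ^ i * b * (x ^ i)⁻¹ = k ^ i * b := by
    intro i
    induction i with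
    | zero => simp
    | succ i ih =>
      calc x ^ (i + 1) * b * (x ^ (i + 1))⁻¹ = x * (x ^ i * b * (x ^ i)⁻¹) * x⁻¹ := by
            rw [pow_succ']; group
        _ = k ^ i * (x * b * x⁻¹) := by
            rw [ih, ← mul_assoc x (k ^ i), (Commute.pow_right hk i).eq]; group
        _ = k ^ (i + 1) * b := by rw [he, pow_succ]; group
  have h2 := h1 (orderOf x)
  rw [pow_orderOf_eq_one, one_mul, inv_one, mul_one] at h2
  exact orderOf_eq_one_iff.mp (Nat.Coprime.eq_one_of_dvd hco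
    (orderOf_dvd_of_pow_eq_one (mul_eq_right.mp h2.symm)))

/-- If every element of a `p'`-group `B` is fixed by a subgroup of index `1` or `p` of the `p`-group
`P`, then one such subgroup fixes `B`. -/
theorem exists_fixing_index_prime {p : ℕ} [hp : Fact p.Prime] {P B : Subgroup G}
    (hP : IsPGroup p P) (hB : ∀ b ∈ B, ¬ p ∣ orderOf b)
    (hPB : ∀ x ∈ P, ∀ b ∈ B, x * b * x⁻¹ ∈ B) (hstab : ∀ b ∈ B, (P ⊓ cz b).relIndex P ∣ p) :
    ∃ H ≤ P, H.relIndex P ∣ p ∧ ∀ b ∈ B, H ≤ cz b := by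
  by_cases hall : ∀ b ∈ B, P ≤ cz b
  · exact ⟨P, le_rfl, by simp, hall⟩
  push Not at hall
  obtain ⟨b1, hb1, hne1⟩ := hall
  set H1 := P ⊓ cz b1 with hH1
  have hidx1 : H1.relIndex P = p := ((Nat.dvd_prime hp.out).mp (hstab b1 hb1)).resolve_left
    fun e => hne1 ((relIndex_eq_one.mp e).trans inf_le_right)
  have hH1n : ∀ x ∈ P, ∀ a ∈ H1, x * a * x⁻¹ ∈ H1 := by
    intro x hx a ha
    have := commutator_mem_of_index_prime hP inf_le_left hidx1 hx ha.1
    have h2 := H1.mul_mem this ha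
    simpa [mul_assoc] using h2
  refine ⟨H1, inf_le_left, hidx1.symm ▸ dvd_rfl, fun b2 hb2 => ?_⟩
  by_contra hne
  set H2 := P ⊓ cz b2 with hH2
  have hidx2 : H2.relIndex P = p := ((Nat.dvd_prime hp.out).mp (hstab b2 hb2)).resolve_left
    fun e => hne (inf_le_left.trans ((relIndex_eq_one.mp e).trans inf_le_right))
  set H3 := P ⊓ cz (b1 * b2) with hH3
  have hH13 : ¬ H1 ≤ H3 := by
    intro hle
    refine hne fun a ha => mem_cz.mpr ?_
    have e1 : Commute a (b1 * b2) := mem_cz.mp (hle ha).2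
    have e2 : Commute a b1 := mem_cz.mp ha.2
    have e3 := (e2.inv_right).mul_right e1
    rwa [inv_mul_cancel_left] at e3
  have hidx3 : H3.relIndex P = p := ((Nat.dvd_prime hp.out).mp (hstab _ (B.mul_mem hb1 hb2))).resolve_left
    fun e => hH13 (inf_le_left.trans (relIndex_eq_one.mp e))
  obtain ⟨h, hh, hhH1⟩ : ∃ h ∈ H3, h ∉ H1 := by
    by_contra hcon
    push Not at hcon
    refine hH13 (le_of_eq (Subgroup.eq_of_le_of_card_ge hcon ?_).symm)
    have e1 : Nat.card H3 * p = Nat.card P := by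
      rw [← hidx3, ← Nat.card_congr (subgroupOfEquivOfLe (inf_le_left : H3 ≤ P)).toEquiv]
      exact card_mul_index _
    have e2 : Nat.card H1 * p = Nat.card P := by
      rw [← hidx1, ← Nat.card_congr (subgroupOfEquivOfLe (inf_le_left : H1 ≤ P)).toEquiv]
      exact card_mul_index _
    exact (Nat.eq_of_mul_eq_mul_right hp.out.pos (e2.trans e1.symm)).le
  have hsup : H1 ⊔ H2 = P := by
    refine le_antisymm (sup_le inf_le_left inf_le_left) ?_
    rw [← relIndex_eq_one]
    have h1 : H1.relIndex (H1 ⊔ H2) * (H1 ⊔ H2).relIndex P = p :=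
      (relIndex_mul_relIndex H1 _ P le_sup_left (sup_le inf_le_left inf_le_left)).trans hidx1
    rcases (Nat.dvd_prime hp.out).mp ⟨_, h1.symm⟩ with h2 | h2
    · exfalso
      have h21 : H2 ≤ H1 := le_sup_right.trans (relIndex_eq_one.mp h2)
      have e1 : Nat.card H2 * p = Nat.card P := by
        rw [← hidx2, ← Nat.card_congr (subgroupOfEquivOfLe (inf_le_left : H2 ≤ P)).toEquiv]
        exact card_mul_index _
      have e2 : Nat.card H1 * p = Nat.card P := by
        rw [← hidx1, ← Nat.card_congr (subgroupOfEquivOfLe (inf_le_left : H1 ≤ P)).toEquiv]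
        exact card_mul_index _
      exact hne ((Subgroup.eq_of_le_of_card_ge h21
        (Nat.eq_of_mul_eq_mul_right hp.out.pos (e2.trans e1.symm)).le).ge.trans inf_le_right)
    · rw [h2] at h1
      exact Nat.eq_of_mul_eq_mul_left hp.out.pos (h1.trans (mul_one p).symm)
  have hH1norm : H2 ≤ normalizer (H1 : Set G) := fun x hx => mem_normalizer_iff.mpr fun a =>
    ⟨fun ha => hH1n x hx.1 a ha, fun ha => by
      have := hH1n x⁻¹ (P.inv_mem hx.1) _ ha
      simpa [mul_assoc] using this⟩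
  have hmem : h ∈ ((H1 ⊔ H2 : Subgroup G) : Set G) := hsup.ge hh.1
  rw [Subgroup.coe_mul_of_right_le_normalizer_left H1 H2 hH1norm] at hmem
  obtain ⟨h1, hh1, h2, hh2, rfl⟩ := Set.mem_mul.mp hmem
  -- `h1` does not fix `b2`
  have hh1b : h1 ∉ cz b2 := by
    intro hc
    refine hhH1 ⟨hh.1, mem_cz.mpr ?_⟩
    have e1 : Commute (h1 * h2) b2 := Commute.mul_left (mem_cz.mp hc) (mem_cz.mp hh2.2)
    have e2 : Commute (h1 * h2) (b1 * b2) := mem_cz.mp hh.2
    have e3 := e2.mul_right e1.inv_right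
    rwa [mul_inv_cancel_right] at e3
  set b1' := h2 * b1 * h2⁻¹ with hb1'
  have hfix : h1 * b1' = b1' * h1 := by
    have h3 : h2⁻¹ * h1 * h2⁻¹⁻¹ ∈ H1 := hH1n _ (P.inv_mem hh2.1) h1 hh1
    have h4 := conj_mem_cz_iff (c := h2) |>.mpr h3.2
    have e : h2 * (h2⁻¹ * h1 * h2⁻¹⁻¹) * h2⁻¹ = h1 := by group
    rw [e] at h4
    exact mem_cz.mp h4
  have e5 : h2 * b2 * h2⁻¹ = b2 := mul_inv_eq_iff_eq_mul.mpr (mem_cz.mp hh2.2)
  have e6 : h1 * h2 * (b1 * b2) * (h1 * h2)⁻¹ = b1 * b2 := mul_inv_eq_iff_eq_mul.mpr (mem_cz.mp hh.2)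
  have hconj : h1 * b2 * h1⁻¹ = b1'⁻¹ * b1 * b2 := by
    have e7 : h1 * h2 * (b1 * b2) * (h1 * h2)⁻¹ = (h1 * b1' * h1⁻¹) * (h1 * (h2 * b2 * h2⁻¹) * h1⁻¹) := by
      rw [hb1']; group
    rw [e6, e5, hfix, mul_inv_cancel_right] at e7
    rw [mul_assoc b1'⁻¹, e7, inv_mul_cancel_left]
  refine hh1b (mem_cz.mpr ?_)
  have hk := eq_one_of_conj_eq_mul (x := h1) (b := b2) (k := b1'⁻¹ * b1)
    (Commute.mul_right (Commute.inv_right hfix) (mem_cz.mp hh1.2)) hconj ?_
  · rw [hk, one_mul] at hconj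
    exact mul_inv_eq_iff_eq_mul.mp hconj
  · obtain ⟨k, hk⟩ := IsPEl.of_mem hP hh1.1
    rw [hk]
    refine ((hp.out.coprime_iff_not_dvd.mpr (hB _ (B.mul_mem (B.inv_mem ?_) hb1))).pow_left k).symm
    exact hPB h2 hh2.1 b1 hb1

namespace OneMMn

variable {m n : ℕ} (h : OneMMn G m n)
include h

/-- An element of index `m n` commuting with a noncentral `q`-element is impossible. -/
theorem index_ne_mn {q : ℕ} [hq : Fact q.Prime] (hqn : q ∣ n) {y g : G} (hy : IsPEl q y)
    (hyZ : y ∉ center G) (hg : g ∈ cz y) : (cz g).index ≠ m * n := by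
  intro hgi
  have hgZ := h.notMem_of_index_mn hgi
  have hexq : ∀ g' : G, g' ∉ center G → ∃ u ∈ cz g', u ∉ center G ∧ IsPEl q u := fun g' _ =>
    h.exists_pel_cz (mem_cz_comm.mp hg) hy hyZ
      ((Nat.factorization_le_iff_dvd index_ne_zero_of_finite index_ne_zero_of_finite).mpr
        (hgi ▸ h.index_dvd g') q)
  have hqi : ∀ z : G, IsPEl q z → z ∉ center G → ¬ q ∣ (cz z).index := fun z hz hzZ hd =>
    h.not_dvd_n hq.out (h.index_eq_m_of_dvd_n hqn hz hzZ ▸ hd) hqn
  -- no noncentral `q'`-element centralizes a Sylow `q`-subgroup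
  have hi1 : ∀ r : ℕ, r.Prime → r ≠ q → ∀ w : G, IsPEl r w → w ∉ center G →
      ∀ Q, IsSylowIn q Q ⊤ → ¬ Q ≤ cz w := by
    intro r hr hrq w hw hwZ Q hQ hQw
    refine not_cover hwZ fun g' hg' => ?_
    obtain ⟨z, hzg, hzZ, hz⟩ := hexq g' hg'
    obtain ⟨Q', hQ', hQ'z⟩ := exists_sylowTop_le (hqi z hz hzZ)
    obtain ⟨c, -, hc⟩ := hQ'.exists_conj hQ
    have hz' : Q ≤ cz (c * z * c⁻¹) := by
      rw [← hc, ← smul_cz]; exact pointwise_smul_le_pointwise_smul_iff.mpr hQ'z
    set z' := c * z * c⁻¹ with hz'def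
    have hz'Q : z' ∈ Q := hQ.mem_of_le_cz (hz.conj c) hz'
    have he := cz_mul (u := z') (v := w) (mem_cz_comm.mp (hQw hz'Q))
      ((hz.conj c).coprime_pel hq.out hr hrq.symm hw)
    have hne : z' * w ∉ center G := fun hmem => hwZ (cz_eq_top_iff.mp (top_le_iff.mp
      ((cz_eq_top_iff.mpr hmem).ge.trans (he.le.trans inf_le_right))))
    have hm1 := h.eq_m_of_not_dvd hqn hne
      (not_dvd_index_of_sylow_le hQ (he.ge.trans' (le_inf hz' hQw)))
    have e1 := h.cz_eq_of_le hm1 hwZ (he.le.trans inf_le_right)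
    have e2 := h.cz_eq_of_le hm1 (conj_notMem_center hzZ) (he.le.trans inf_le_left)
    refine ⟨c⁻¹, ?_⟩
    rw [← conj_mem_cz_iff (c := c)]
    have e : c * (c⁻¹ * w * c⁻¹⁻¹) * c⁻¹ = w := by group
    rw [e, ← e1, e2]
    exact conj_mem_cz_iff.mpr (mem_cz_comm.mp hzg)
  -- `n` is a power of `q`
  have hi2 : ∀ r : ℕ, r.Prime → r ∣ n → r = q := by
    intro r hr hrn
    by_contra hrq
    haveI := Fact.mk hr
    obtain ⟨v, hv, hvZ⟩ := h.exists_pel_of_dvd (hrn.mul_left m)
    have hri : ∀ z : G, (cz z).index = m → ¬ r ∣ (cz z).index := fun z hz hd =>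
      h.not_dvd_n hr (hz ▸ hd) hrn
    obtain ⟨R', hR', hR'v⟩ := exists_sylowTop_le (hri v (h.index_eq_m_of_dvd_n hrn hv hvZ))
    obtain ⟨R, hR, hRy⟩ := exists_sylowTop_le (hri y (h.index_eq_m_of_dvd_n hqn hy hyZ))
    obtain ⟨c, -, hc⟩ := hR'.exists_conj hR
    have hv' : R ≤ cz (c * v * c⁻¹) := by
      rw [← hc, ← smul_cz]; exact pointwise_smul_le_pointwise_smul_iff.mpr hR'v
    set v' := c * v * c⁻¹ with hv'def
    have hv'R : v' ∈ R := hR.mem_of_le_cz (hv.conj c) hv'
    have he := cz_mul (u := y) (v := v') (hRy hv'R) (hy.coprime_pel hq.out hr (Ne.symm hrq) (hv.conj c))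
    have hne : y * v' ∉ center G := fun hmem => hyZ (cz_eq_top_iff.mp (top_le_iff.mp
      ((cz_eq_top_iff.mpr hmem).ge.trans (he.le.trans inf_le_left))))
    have hm1 := h.eq_m_of_not_dvd hrn hne
      (not_dvd_index_of_sylow_le hR (he.ge.trans' (le_inf hRy hv')))
    have e2 := h.cz_eq_of_le hm1 hyZ (he.le.trans inf_le_left)
    obtain ⟨Q, hQ, hQy⟩ := exists_sylowTop_le (hqi y hy hyZ)
    exact hi1 r hr hrq v' (hv.conj c) (conj_notMem_center hvZ) Q hQ
      (hQy.trans (e2.ge.trans (he.le.trans inf_le_right)))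
  -- elements of `m`-primes have index `m n`
  have hi3 : ∀ r : ℕ, r.Prime → r ∣ m → ∀ w : G, IsPEl r w → w ∉ center G → (cz w).index = m * n := by
    intro r hr hrm w hw hwZ
    refine (h.cases_nc hwZ).resolve_left fun e => ?_
    obtain ⟨Q, hQ, hQw⟩ := exists_sylowTop_le (q := q) (y := w)
      (fun hd => h.not_dvd_n hq.out (e ▸ hd) hqn)
    exact hi1 r hr (fun e' => h.not_dvd_n hr hrm (e' ▸ hqn)) w hw hwZ Q hQ hQw
  obtain ⟨p, hp, hpm⟩ := Nat.exists_prime_and_dvd h.one_lt_m.ne'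
  haveI := Fact.mk hp
  have hpq : p ≠ q := fun e => h.not_dvd_n hp hpm (e ▸ hqn)
  by_cases htwo : ∃ s : ℕ, s.Prime ∧ s ∣ m ∧ s ≠ p
  · obtain ⟨s, hs, hsm, hsp⟩ := htwo
    refine hsp (h.eq_prime_of_abelian ?_ hp hs hpm hsm).symm
    intro r hr hrm w hw hwZ a ha b hb
    obtain ⟨t, ht, htprime, htne⟩ : ∃ t : ℕ, t ∣ m ∧ t.Prime ∧ t ≠ r := by
      by_cases e : r = p
      · exact ⟨s, hsm, hs, e ▸ hsp⟩
      · exact ⟨p, hpm, hp, Ne.symm e⟩
    haveI := Fact.mk htprime
    obtain ⟨u, huw, huZ, hu⟩ := h.exists_pel ht hwZ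
    have hle := h.cz_le_of_mn hr hw (hi3 r hr hrm w hw hwZ) huw
      (not_dvd_orderOf_of_pel hr htprime htne hu)
    have heq := eq_of_le_of_index hle
      ((hi3 r hr hrm w hw hwZ).trans (hi3 t htprime ht u hu huZ).symm)
    -- every primary part of `b` is central in `cz w`
    have hbc : b ∈ (centralizer (cz w : Set G)) := by
      refine mem_of_primaryParts _ b fun k hk _ => ?_
      obtain ⟨j, -, hj⟩ := (Nat.dvd_prime_pow hk).mp (orderOf_primaryPart_dvd k b)
      refine mem_centralizer_iff.mpr fun c hc => ?_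
      by_cases hkr : k = r
      · have h2 := h.cz_le_of_mn htprime hu (hi3 t htprime ht u hu huZ) (heq ▸ pow_mem hb _)
          (not_dvd_orderOf_of_pel htprime hk (hkr ▸ htne.symm) ⟨j, hj⟩)
        exact mem_cz.mp (h2 (heq ▸ hc))
      · exact mem_cz.mp (h.cz_le_of_mn hr hw (hi3 r hr hrm w hw hwZ) (pow_mem hb _)
          (not_dvd_orderOf_of_pel hr hk hkr ⟨j, hj⟩) hc)
    exact mem_centralizer_iff.mp hbc a ha
  push Not at htwo
  -- `m = p`
  obtain ⟨P, hP, -⟩ := exists_isSylowIn (IsPGroup.of_bot : IsPGroup p (⊥ : Subgroup G)) (bot_le : (⊥ : Subgroup G) ≤ ⊤)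
  have hPZ : ¬ P ≤ center G := fun hle => by
    obtain ⟨x, hx, hxZ⟩ := h.exists_pel_of_dvd (hpm.mul_right n)
    obtain ⟨c, -, hc⟩ := hP.exists_conj_mem hx (mem_top x)
    exact conj_notMem_center hxZ (hle hc)
  obtain ⟨w, hwP, hwZ, hwp', hcomm⟩ := exists_central_mod_center hP.isPGroup le_rfl
    (fun x hx a ha => P.mul_mem (P.mul_mem hx ha) (P.inv_mem hx)) hPZ
  have hwp := IsPEl.of_mem hP.isPGroup hwP
  obtain ⟨v, hvw, hvZ, hv⟩ := hexq w hwZ
  obtain ⟨hm1, -, -, -⟩ := h.index_prime_of_normalized hpm hwp hwZ hwp' hP hcomm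
    (fun t ht htp => h.cz_le_of_mn hp hwp (hi3 p hp hpm w hwp hwZ) ht htp) hpq.symm hvw hvZ hv
  have hmp : m = p := by
    have hm0 : m ≠ 0 := by have := h.one_lt_m; omega
    rw [Nat.eq_prime_pow_of_unique_prime_dvd hm0 (fun {d} hd hdm => htwo d hd hdm)]
    conv_rhs => rw [← pow_one p]
    congr 1
    rw [← hm1]
    conv_rhs => rw [Nat.eq_prime_pow_of_unique_prime_dvd hm0 (fun {d} hd hdm => htwo d hd hdm)]
    rw [hp.factorization_pow, Finsupp.single_eq_same]
  have hPcard : Nat.card P = p ^ (Nat.card G).factorization p := by rw [hP.2, card_top]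
  -- normal `p`-subgroups are central
  have hA : ∀ A : Subgroup G, A.Normal → IsPGroup p A → A ≤ center G := by
    intro A hAn hAp
    by_contra hAZ
    obtain ⟨a, ha, haZ⟩ := SetLike.not_le_iff_exists.mp hAZ
    obtain ⟨z, hz, hzZ, hza⟩ : ∃ z, IsPEl q z ∧ z ∉ center G ∧ ¬ A ≤ cz z := by
      by_contra hcon
      push Not at hcon
      obtain ⟨Q, hQ, -⟩ := exists_isSylowIn (IsPGroup.of_bot : IsPGroup q (⊥ : Subgroup G)) (bot_le : (⊥ : Subgroup G) ≤ ⊤)
      refine hi1 p hp hpq a (IsPEl.of_mem hAp ha) haZ Q hQ fun z hz => mem_cz_comm.mp ?_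
      by_cases hzZ : z ∈ center G
      · rw [cz_eq_top_iff.mpr hzZ]; trivial
      · exact hcon z (IsPEl.of_mem hQ.isPGroup hz) hzZ ha
    obtain ⟨S, hS, hKS⟩ := exists_isSylowIn (p := p) (hAp.to_le (inf_le_left : A ⊓ cz z ≤ A))
      (inf_le_right : A ⊓ cz z ≤ cz z)
    obtain ⟨Pz, hPz, hSP⟩ := exists_isSylowIn hS.isPGroup (le_top : S ≤ ⊤)
    have hidx : S.relIndex Pz = p := by
      have h1 := h.factorization_card hp hpm hzZ
      have h2 : Nat.card S * S.relIndex Pz = Nat.card Pz := by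
        rw [← Nat.card_congr (subgroupOfEquivOfLe hSP).toEquiv]; exact card_mul_index _
      rw [hS.2, hPz.2, card_top, ← h1, hm1, pow_succ] at h2
      exact Nat.eq_of_mul_eq_mul_left (pow_pos hp.pos _) h2
    have hAP : A ≤ Pz := (hPz.eq_of_le (hAp.to_sup_of_normal_left hPz.isPGroup) le_sup_right le_top).ge.trans'
      le_sup_left
    obtain ⟨b, hb, hbz⟩ := SetLike.not_le_iff_exists.mp hza
    have hbz' : z * b ≠ b * z := fun e => hbz (mem_cz.mpr e.symm)
    set e := z * b * z⁻¹ * b⁻¹ with he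
    have heA : e ∈ A := A.mul_mem (hAn.conj_mem b hb z) (A.inv_mem hb)
    have heS : ∀ s ∈ S, s * e = e * s := by
      intro s hs
      set k := b⁻¹ * (s * b * s⁻¹) with hk
      have hkA : k ∈ A := A.mul_mem (A.inv_mem hb) (hAn.conj_mem b hb s)
      have hkS : k ∈ S := by
        have := commutator_mem_of_index_prime hPz.isPGroup hSP hidx (Pz.inv_mem (hAP hb)) (hSP hs)
        simpa [hk, mul_assoc] using this
      have hkz : z * k = k * z := (mem_cz.mp (hS.1 hkS)).symm
      have hsz : z * s = s * z := (mem_cz.mp (hS.1 hs)).symm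
      have hszi : s⁻¹ * z = z * s⁻¹ := ((Commute.inv_right hsz).eq).symm
      calc s * e = s * z * b * z⁻¹ * b⁻¹ := by rw [he]; group
        _ = z * (s * b * s⁻¹) * (s * z⁻¹) * b⁻¹ := by rw [← hsz]; group
        _ = z * (b * k) * z⁻¹ * (s * b⁻¹) := by
            rw [show s * z⁻¹ = z⁻¹ * s from (Commute.inv_left hsz).eq.symm,
              show s * b * s⁻¹ = b * k by rw [hk]; group]
            group
        _ = z * b * z⁻¹ * (k * s * b⁻¹) := by
            rw [show z * (b * k) * z⁻¹ = z * b * (k * z⁻¹) by group,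
              show k * z⁻¹ = z⁻¹ * k from (Commute.inv_left hkz).eq.symm]
            group
        _ = _ := by rw [he, hk]; group
    have hez : e ∉ cz z := by
      intro hmem
      have h1 : e = 1 := eq_one_of_conj_eq_mul (x := z) (b := b) (mem_cz.mp hmem).symm
        (by rw [he]; group) ((IsPEl.of_mem hAp heA).coprime_pel hp hq.out hpq hz)
      refine hbz' ?_
      rw [he, mul_inv_eq_one, mul_inv_eq_iff_eq_mul] at h1
      exact h1
    have heP : Pz ≤ cz e := by
      have hSe : S ⊔ zpowers e ≤ cz e :=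
        sup_le (fun s hs => mem_cz.mpr (heS s hs)) (zpowers_le.mpr (self_mem_cz e))
      refine le_trans ?_ hSe
      rw [← relIndex_eq_one]
      have h1 : S.relIndex (S ⊔ zpowers e) * (S ⊔ zpowers e).relIndex Pz = p :=
        (relIndex_mul_relIndex S _ Pz le_sup_left (sup_le hSP (zpowers_le.mpr (hAP heA)))).trans hidx
      rcases (Nat.dvd_prime hp).mp ⟨_, h1.symm⟩ with h2 | h2
      · exact absurd (hS.1 (relIndex_eq_one.mp h2 (mem_sup_right (mem_zpowers e)))) hez
      · rw [h2] at h1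
        exact Nat.eq_of_mul_eq_mul_left hp.pos (h1.trans (mul_one p).symm)
    refine hez (center_le_cz z ?_)
    by_contra heZ
    exact not_dvd_index_of_sylow_le hPz heP (dvd_trans hpm (h.m_dvd heZ))
  -- `G` is solvable
  haveI : Group.IsSolvable G := by
    haveI : Group.IsSolvable (G ⧸ center G) := by
      set N := Nat.card (G ⧸ center G) with hN
      refine H25.isSolvable_of_card_eq_mul_pow hp hq.out (a := N.factorization p)
        (b := N.factorization q) ?_
      have hsub : N.primeFactors ⊆ {p, q} := by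
        intro r hr
        obtain ⟨hr, hrd, -⟩ := Nat.mem_primeFactors.mp hr
        haveI := Fact.mk hr
        by_contra hne
        simp only [Finset.mem_insert, Finset.mem_singleton, not_or] at hne
        obtain ⟨R⟩ := (inferInstance : Nonempty (Sylow r G))
        refine R.not_dvd_index (hrd.trans ?_)
        rw [hN, ← index_eq_card]
        refine index_dvd_of_le (le_center_of_not_vertex R fun g' hd => ?_)
        rcases h.prime_dvd_cases hr hd with hd' | hd'
        · exact hne.1 (htwo r hr hd')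
        · exact hne.2 (hi2 r hr hd')
      refine (Nat.prod_factorization_pow_eq_self (Nat.card_pos.ne' : N ≠ 0)).symm.trans ?_
      rw [Finsupp.prod_of_support_subset _ (by simpa using hsub) _ (fun _ _ => pow_zero _),
        Finset.prod_insert (by simpa using hpq), Finset.prod_singleton]
    haveI : Group.IsSolvable (center G) := H20.isSolvable_of_isMulCommutative _
    exact Group.isSolvable_of_ker_le_range (center G).subtype (QuotientGroup.mk' (center G)) (by simp)
  -- an index `p` subgroup of `P` fixing the `q`-core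
  obtain ⟨H, hHP, hHi, hHB⟩ := exists_fixing_index_prime hP.isPGroup (B := Cfsg.pCore q G)
    (fun b hb => not_dvd_orderOf_of_pel hp hq.out hpq.symm (IsPEl.of_mem (H19.pCore_isPGroup q) hb))
    (fun x _ b hb => (H19.pCore_normal q G).conj_mem b hb x)
    (fun b hb => by
      by_cases hbZ : b ∈ center G
      · rw [cz_eq_top_iff.mpr hbZ, inf_top_eq, relIndex_self]; exact one_dvd _
      obtain ⟨k, hk⟩ := hP.isPGroup.index ((P ⊓ cz b).subgroupOf P)
      replace hk : (P ⊓ cz b).relIndex P = p ^ k := hk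
      have h1 : (P ⊓ cz b).relIndex P ≤ p := by
        rw [inf_relIndex_left]
        have h2 := h.index_eq_m_of_dvd_n hqn (IsPEl.of_mem (H19.pCore_isPGroup q) hb) hbZ
        rw [hmp] at h2
        conv_rhs => rw [← h2, ← relIndex_top_right (cz b)]
        exact relIndex_le_of_le_right le_top (by rw [relIndex_top_right, h2]; exact hp.ne_zero)
      rw [hk] at h1 ⊢
      rcases Nat.lt_or_ge k 2 with hk2 | hk2
      · exact (pow_dvd_pow p (Nat.lt_succ_iff.mp hk2)).trans (pow_one p).dvd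
      · exfalso
        have h3 := Nat.pow_le_pow_right hp.pos hk2
        nlinarith [hp.two_le])
  -- `H` is not central
  obtain ⟨u, hu, huZ⟩ : ∃ u ∈ H, u ∉ center G := by
    by_contra hcon
    push Not at hcon
    obtain ⟨x, hx, hxZ⟩ := SetLike.not_le_iff_exists.mp hPZ
    have hle : H ⊔ zpowers x ≤ cz x :=
      sup_le (fun a ha => center_le_cz x (hcon a ha)) (zpowers_le.mpr (self_mem_cz x))
    have hPx : P ≤ cz x := by
      refine le_trans ?_ hle
      rw [← relIndex_eq_one]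
      have h1 : H.relIndex (H ⊔ zpowers x) * (H ⊔ zpowers x).relIndex P = H.relIndex P :=
        relIndex_mul_relIndex H _ P le_sup_left (sup_le hHP (zpowers_le.mpr hx))
      rcases (Nat.dvd_prime hp).mp hHi with e | e
      · rw [e] at h1; exact Nat.eq_one_of_mul_eq_one_left h1
      · rw [e] at h1
        rcases (Nat.dvd_prime hp).mp ⟨_, h1.symm⟩ with h2 | h2
        · exact absurd (hcon x (relIndex_eq_one.mp h2 (mem_sup_right (mem_zpowers x)))) hxZ
        · rw [h2] at h1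
          exact Nat.eq_of_mul_eq_mul_left hp.pos (h1.trans (mul_one p).symm)
    exact not_dvd_index_of_sylow_le hP hPx (dvd_trans hpm (h.m_dvd hxZ))
  have hup := IsPEl.of_mem hP.isPGroup (hHP hu)
  refine huZ (hA _ (H19.pCore_normal p G) (H19.pCore_isPGroup p)
    (mem_pCore_of_pel_fitting (H19.centralizer_fitting_le ?_) hup))
  refine mem_centralizer_iff.mpr fun f hf => ?_
  suffices f ∈ cz u from mem_cz.mp this
  refine mem_of_primaryParts _ f fun r hr _ => ?_
  obtain ⟨j, -, hj⟩ := (Nat.dvd_prime_pow hr).mp (orderOf_primaryPart_dvd r f)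
  haveI := Fact.mk hr
  by_cases hc : f ^ primaryExp r f ∈ center G
  · exact center_le_cz u hc
  by_cases hrp : r = p
  · subst hrp
    exact absurd (hA _ (H19.pCore_normal r G) (H19.pCore_isPGroup r)
      (mem_pCore_of_pel_fitting (pow_mem hf _) ⟨j, hj⟩)) hc
  by_cases hrq : r = q
  · subst hrq
    exact mem_cz_comm.mp (hHB _ (mem_pCore_of_pel_fitting (pow_mem hf _) ⟨j, hj⟩) hu)
  exfalso
  obtain ⟨R, hR, hfR⟩ := exists_isSylowIn_mem (⟨j, hj⟩ : IsPEl r (f ^ primaryExp r f)) (mem_top _)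
  have hRc := le_center_of_not_vertex (Sylow.ofCard R (by rw [hR.2, card_top])) (fun g' hd => by
    rcases h.prime_dvd_cases hr hd with hd' | hd'
    · exact hrp (htwo r hr hd')
    · exact hrq (hi2 r hr hd'))
  rw [Sylow.coe_ofCard] at hRc
  exact hc (hRc hfR)

/-- The centralizer of an element of index `m` is abelian, and is the centralizer of each of its
noncentral elements. -/
theorem cz_eq_of_mem {q : ℕ} [hq : Fact q.Prime] (hqn : q ∣ n) {y g : G} (hy : IsPEl q y)
    (hyZ : y ∉ center G) (hg : g ∈ cz y) : cz y ≤ cz g := by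
  obtain ⟨p, hp, hpm⟩ := Nat.exists_prime_and_dvd h.one_lt_m.ne'
  haveI := Fact.mk hp
  have hidx : ∀ t ∈ cz y, t ∉ center G → (cz t).index = m := fun t ht htZ =>
    (h.cases_nc htZ).resolve_right (h.index_ne_mn hqn hy hyZ ht)
  have hq' : ∀ t ∈ cz y, ∀ r : ℕ, r.Prime → r ≠ q → IsPEl r t → t ∉ center G → cz y = cz t := by
    intro t ht r hr hrq htp htZ
    have he := cz_mul (u := y) (v := t) ht (hy.coprime_pel hq.out hr hrq.symm htp)
    have hne : y * t ∉ center G := fun hc => hyZ (cz_eq_top_iff.mp (top_le_iff.mp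
      ((cz_eq_top_iff.mpr hc).ge.trans (he.le.trans inf_le_left))))
    have hmem : y * t ∈ cz y := mul_mem (self_mem_cz y) ht
    have h1 := hidx _ hmem hne
    rw [← h.cz_eq_of_le h1 hyZ (he.le.trans inf_le_left), h.cz_eq_of_le h1 htZ (he.le.trans inf_le_right)]
  suffices g ∈ centralizer (cz y : Set G) from
    fun a ha => mem_cz.mpr (mem_centralizer_iff.mp this a ha)
  refine mem_of_primaryParts _ g fun r hr _ => ?_
  obtain ⟨j, -, hj⟩ := (Nat.dvd_prime_pow hr).mp (orderOf_primaryPart_dvd r g)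
  set t := g ^ primaryExp r g with ht
  have htm : t ∈ cz y := pow_mem hg _
  suffices hle : cz y ≤ cz t from mem_centralizer_iff.mpr fun a ha => mem_cz.mp (hle ha)
  by_cases htZ : t ∈ center G
  · rw [cz_eq_top_iff.mpr htZ]; exact le_top
  by_cases hrq : r = q
  · obtain ⟨a, ha, haZ, hap⟩ := h.exists_pel hpm hyZ
    have hpq : p ≠ q := fun e => h.not_dvd_n hp hpm (e ▸ hqn)
    have hea := hq' a ha p hp hpq hap haZ
    have he := cz_mul (u := a) (v := t) (hea ▸ htm)
      (hap.coprime_pel hp hq.out hpq (hrq ▸ ⟨j, hj⟩))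
    have hne : a * t ∉ center G := fun hc => haZ (cz_eq_top_iff.mp (top_le_iff.mp
      ((cz_eq_top_iff.mpr hc).ge.trans (he.le.trans inf_le_left))))
    have h1 := h.cz_eq_of_le (hidx _ (mul_mem ha htm) hne) haZ (he.le.trans inf_le_left)
    exact hea.le.trans (h1.ge.trans (he.le.trans inf_le_right))
  · exact (hq' t htm r hr hrq ⟨j, hj⟩ htZ).le

theorem cz_eq_cz_of_mem {q : ℕ} [hq : Fact q.Prime] (hqn : q ∣ n) {y g : G} (hy : IsPEl q y)
    (hyZ : y ∉ center G) (hg : g ∈ cz y) (hgZ : g ∉ center G) : cz y = cz g :=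
  h.cz_eq_of_le (h.index_eq_m_of_dvd_n hqn hy hyZ) hgZ (h.cz_eq_of_mem hqn hy hyZ hg)

/-- An element of index `m` lies in the centralizer of a conjugate of a given `q`-element. -/
theorem exists_conj_cz {q : ℕ} [hq : Fact q.Prime] (hqn : q ∣ n) {y g : G} (hy : IsPEl q y)
    (hgi : (cz g).index = m) : ∃ c : G, g ∈ cz (c * y * c⁻¹) := by
  obtain ⟨Q, hQ, hQg⟩ := exists_sylowTop_le (q := q) (y := g)
    (fun hd => h.not_dvd_n hq.out (hgi ▸ hd) hqn)
  obtain ⟨c, -, hc⟩ := hQ.exists_conj_mem hy (mem_top y)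
  exact ⟨c, mem_cz_comm.mp (hQg hc)⟩

/-- `m` has a single prime divisor. -/
theorem unique_prime {p s : ℕ} (hp : p.Prime) (hs : s.Prime) (hpm : p ∣ m) (hsm : s ∣ m) : p = s := by
  by_contra hne
  obtain ⟨q, hq, hqn⟩ := Nat.exists_prime_and_dvd h.one_lt_n.ne'
  haveI := Fact.mk hq
  obtain ⟨y, hy, hyZ⟩ := h.exists_pel_of_dvd (hqn.mul_left m)
  have habm : ∀ g : G, (cz g).index = m → ∀ a ∈ cz g, ∀ b ∈ cz g, a * b = b * a := by
    intro g hg a ha b hb
    obtain ⟨c, hc⟩ := h.exists_conj_cz hqn hy hg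
    have heq := h.cz_eq_cz_of_mem hqn (hy.conj c) (conj_notMem_center hyZ) hc (h.notMem_of_index_m hg)
    rw [← heq] at ha hb
    exact mem_cz.mp (h.cz_eq_of_mem hqn (hy.conj c) (conj_notMem_center hyZ) hb ha)
  refine hne (h.eq_prime_of_abelian ?_ hp hs hpm hsm)
  intro r hr hrm w hw hwZ a ha b hb
  rcases h.cases_nc hwZ with e | e
  · exact habm w e a ha b hb
  obtain ⟨t, ht, htprime, htne⟩ : ∃ t : ℕ, t ∣ m ∧ t.Prime ∧ t ≠ r := by
    by_cases e' : r = p
    · exact ⟨s, hsm, hs, e' ▸ Ne.symm hne⟩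
    · exact ⟨p, hpm, hp, Ne.symm e'⟩
  haveI := Fact.mk htprime
  obtain ⟨u, huw, huZ, hu⟩ := h.exists_pel ht hwZ
  have hle := h.cz_le_of_mn hr hw e huw (not_dvd_orderOf_of_pel hr htprime htne hu)
  have hui : (cz u).index = m * n := (h.cases_nc huZ).resolve_left fun hum => by
    have hle2 : cz u ≤ cz w := fun a ha => mem_cz.mpr (habm u hum a ha w (mem_cz_comm.mp huw))
    have h1 : (cz w).index ∣ m := hum ▸ index_dvd_of_le hle2
    exact h.m_ne_mn ((h.eq_m_of_dvd_m hwZ h1).symm.trans e)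
  have heq := eq_of_le_of_index hle (e.trans hui.symm)
  have hbc : b ∈ (centralizer (cz w : Set G)) := by
    refine mem_of_primaryParts _ b fun k hk _ => ?_
    obtain ⟨j, -, hj⟩ := (Nat.dvd_prime_pow hk).mp (orderOf_primaryPart_dvd k b)
    refine mem_centralizer_iff.mpr fun c hc => ?_
    by_cases hkr : k = r
    · exact mem_cz.mp (h.cz_le_of_mn htprime hu hui (heq ▸ pow_mem hb _)
        (not_dvd_orderOf_of_pel htprime hk (hkr ▸ htne.symm) ⟨j, hj⟩) (heq ▸ hc))
    · exact mem_cz.mp (h.cz_le_of_mn hr hw e (pow_mem hb _)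
        (not_dvd_orderOf_of_pel hr hk hkr ⟨j, hj⟩) hc)
  exact mem_centralizer_iff.mp hbc a ha

/-- The structure theorem. -/
theorem structure_theorem :
    m.Prime ∧ m ∣ n - 1 ∧
      (∃ M : Subgroup G, M.Normal ∧ (M : Set G) = {x : G | (cz x).index = 1 ∨ (cz x).index = m} ∧
        M.index = m ∧ IsMulCommutative M) ∧
      (∃ N : Subgroup G, N.Normal ∧ (Nat.card N).Coprime m ∧ ∃ a : ℕ, N.index = m ^ a) ∧
      ∀ P : Sylow m G, Nat.card (commutator (P : Subgroup G)) = m := by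
  obtain ⟨p, hp, hpm⟩ := Nat.exists_prime_and_dvd h.one_lt_m.ne'
  haveI := Fact.mk hp
  obtain ⟨q, hq, hqn⟩ := Nat.exists_prime_and_dvd h.one_lt_n.ne'
  haveI := Fact.mk hq
  obtain ⟨y, hy, hyZ⟩ := h.exists_pel_of_dvd (hqn.mul_left m)
  have hpq : p ≠ q := fun e => h.not_dvd_n hp hpm (e ▸ hqn)
  have hm0 : m ≠ 0 := by have := h.one_lt_m; omega
  have hmpow : m = p ^ m.factorization p := by
    conv_lhs => rw [Nat.eq_prime_pow_of_unique_prime_dvd hm0
      (fun {d} hd hdm => (h.unique_prime hd hp hdm hpm))]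
    congr 1
    conv_rhs => rw [Nat.eq_prime_pow_of_unique_prime_dvd hm0
      (fun {d} hd hdm => (h.unique_prime hd hp hdm hpm))]
    rw [hp.factorization_pow, Finsupp.single_eq_same]
  set C := cz y with hC
  have hyi := h.index_eq_m_of_dvd_n hqn hy hyZ
  have hCab : ∀ a ∈ C, ∀ b ∈ C, a * b = b * a := fun a ha b hb =>
    mem_cz.mp (h.cz_eq_of_mem hqn hy hyZ hb ha)
  have hCeq : ∀ g ∈ C, g ∉ center G → C = cz g := fun g hg hgZ => h.cz_eq_cz_of_mem hqn hy hyZ hg hgZ
  obtain ⟨PC, hPC, -⟩ := exists_isSylowIn (IsPGroup.of_bot : IsPGroup p (⊥ : Subgroup G)) (bot_le : ⊥ ≤ C)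
  obtain ⟨P, hP, hPCP⟩ := exists_isSylowIn hPC.isPGroup (le_top : PC ≤ ⊤)
  have hPCeq : PC = P ⊓ C :=
    hPC.eq_of_le (hP.isPGroup.to_le inf_le_left) (le_inf hPCP hPC.1) inf_le_right
  have hfC : (Nat.card C).factorization p + m.factorization p = (Nat.card G).factorization p :=
    h.factorization_card hp hpm hyZ
  -- `G = C P`
  have hCP : ∀ g : G, ∃ c ∈ C, ∃ x ∈ P, g = c * x := by
    refine H88.exists_mul_of_card_eq C P ?_
    rw [← hPCeq, hPC.2]
    refine Nat.eq_of_mul_eq_mul_right (Nat.pos_of_ne_zero (index_ne_zero_of_finite (H := C))) ?_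
    rw [card_mul_index]
    conv_rhs => rw [hyi, hmpow, mul_assoc, ← pow_add, hfC]
    rw [mul_comm P.index]
    conv_lhs => rw [← P.card_mul_index, hP.2, card_top]
  obtain ⟨u, huPC, huZ⟩ : ∃ u ∈ PC, u ∉ center G := by
    obtain ⟨a, ha, haZ, hap⟩ := h.exists_pel hpm hyZ
    obtain ⟨c, -, hc⟩ := hPC.exists_conj_mem hap ha
    exact ⟨_, hc, conj_notMem_center haZ⟩
  have huC : C = cz u := hCeq u (hPC.1 huPC) huZ
  -- the normal closure of `PC`
  set A := normalClosure (PC : Set G) with hA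
  haveI hAn : A.Normal := normalClosure_normal
  have hAP : A ≤ P := by
    refine (Subgroup.closure_le P).mpr fun b hb => ?_
    obtain ⟨e, he, hconj⟩ := Group.mem_conjugatesOfSet_iff.mp hb
    obtain ⟨g, rfl⟩ := isConj_iff.mp hconj
    obtain ⟨c, hc, x, hx, hg⟩ := hCP g⁻¹
    have hg' : g = x⁻¹ * c⁻¹ := by rw [← mul_inv_rev, ← hg, inv_inv]
    subst hg'
    have hce : c⁻¹ * e * c = e := by
      rw [mul_assoc, hCab e (hPC.1 he) c hc, inv_mul_cancel_left]
    have e2 : x⁻¹ * c⁻¹ * e * (x⁻¹ * c⁻¹)⁻¹ = x⁻¹ * (c⁻¹ * e * c) * x := by group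
    rw [e2, hce]
    exact P.mul_mem (P.mul_mem (P.inv_mem hx) (hPCP he)) hx
  have hPCA : PC ≤ A := subset_normalClosure
  have hAC : A ⊓ C = PC :=
    (hPC.eq_of_le ((hP.isPGroup.to_le hAP).to_le inf_le_left) (le_inf hPCA hPC.1) inf_le_right).symm
  have hAeq : A = PC := by
    by_contra hne
    haveI : Group.IsNilpotent A := (hP.isPGroup.to_le hAP).isNilpotent
    have hlt : PC.subgroupOf A < ⊤ :=
      lt_top_iff_ne_top.mpr fun e => hne (le_antisymm (subgroupOf_eq_top.mp e) hPCA)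
    obtain ⟨⟨v, hvA⟩, hv, hvPC⟩ :=
      SetLike.exists_of_lt (Group.normalizerCondition_of_isNilpotent _ hlt)
    rw [mem_subgroupOf] at hvPC
    have hvC : v ∉ C := fun hc => hvPC (hAC ▸ ⟨hvA, hc⟩)
    have hvu : v * u * v⁻¹ ∈ PC := by
      have h1 := (mem_normalizer_iff.mp hv ⟨u, hPCA huPC⟩).mp (by rwa [mem_subgroupOf])
      rwa [mem_subgroupOf] at h1
    have hvC' : ∀ c, c ∈ C ↔ v * c * v⁻¹ ∈ C := fun c => by
      conv_rhs => rw [hCeq _ (hPC.1 hvu) (conj_notMem_center huZ), conj_mem_cz_iff, ← huC]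
    set k := y * v * y⁻¹ * v⁻¹ with hk
    have hkC : k ∈ C := by
      have h1 := (hvC' y⁻¹).mp (C.inv_mem (self_mem_cz y))
      have h2 := C.mul_mem (self_mem_cz y : y ∈ C) h1
      simpa [hk, mul_assoc] using h2
    have hkA : k ∈ A := A.mul_mem (hAn.conj_mem v hvA y) (A.inv_mem hvA)
    have hk1 : k = 1 := eq_one_of_conj_eq_mul (x := y) (b := v) (hCab y (self_mem_cz y) k hkC)
      (by rw [hk]; group)
      ((IsPEl.of_mem hPC.isPGroup (hAC ▸ ⟨hkA, hkC⟩)).coprime_pel hp hq hpq hy)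
    refine hvC ?_
    rw [hk, mul_inv_eq_one, mul_inv_eq_iff_eq_mul] at hk1
    exact mem_cz.mpr hk1.symm
  haveI hPCn : PC.Normal := hAeq ▸ hAn
  have hCn : C.Normal := ⟨fun c hc g => by
    rw [hCeq _ (hPC.1 (hPCn.conj_mem u huPC g)) (conj_notMem_center huZ), conj_mem_cz_iff, ← huC]
    exact hc⟩
  -- `C` is the set of elements of index `1` or `m`
  have hset : ∀ x : G, x ∈ C ↔ ((cz x).index = 1 ∨ (cz x).index = m) := by
    intro x
    constructor
    · intro hx
      by_cases hxZ : x ∈ center G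
      · exact Or.inl (index_cz_eq_one_iff.mpr hxZ)
      · exact Or.inr (by rw [← hCeq x hx hxZ, hyi])
    · rintro (h1 | h1)
      · exact center_le_cz y (index_cz_eq_one_iff.mp h1)
      · obtain ⟨c, hc⟩ := h.exists_conj_cz hqn hy h1
        rw [← smul_cz, mem_pointwise_smul_iff_inv_smul_mem, MulAut.smul_def, MulAut.conj_inv_apply] at hc
        have h2 := hCn.conj_mem _ hc c
        simpa [mul_assoc] using h2
  -- `m = p`
  have hPCZ : ¬ PC ≤ center G := fun hle => huZ (hle huPC)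
  obtain ⟨w, hwPC, hwZ, hwp', hcomm⟩ := exists_central_mod_center hP.isPGroup hPCP
    (fun x _ a ha => hPCn.conj_mem a ha x) hPCZ
  have hwC : C = cz w := hCeq w (hPC.1 hwPC) hwZ
  obtain ⟨hm1, -, -, -⟩ := h.index_prime_of_normalized hpm (IsPEl.of_mem hPC.isPGroup hwPC) hwZ hwp'
    hP hcomm (fun t ht _ a ha => mem_cz.mpr (hCab a (hwC ▸ ha) t (hwC ▸ ht))) hpq.symm
    (hwC ▸ self_mem_cz y) hyZ hy
  rw [hm1, pow_one] at hmpow
  subst hmpow
  rw [hm1] at hfC
  -- an element of `P` outside `C`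
  obtain ⟨g, hgP, hgC⟩ : ∃ g ∈ P, g ∉ C := by
    by_contra hcon
    push Not at hcon
    have h1 := card_dvd_ordProj hP.isPGroup hcon
    have h2 := Nat.le_of_dvd (pow_pos hp.pos _) h1
    rw [hP.2, card_top, Nat.pow_le_pow_iff_right hp.one_lt] at h2
    omega
  have hgi : (cz g).index = m * n := by
    rcases h.sizes g with e | e | e
    · exact absurd ((hset g).mpr (Or.inl e)) hgC
    · exact absurd ((hset g).mpr (Or.inr e)) hgC
    · exact e
  have hCg : C ⊓ cz g = center G := by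
    refine le_antisymm (fun e he => ?_) (le_inf (center_le_cz y) (center_le_cz g))
    by_contra heZ
    exact hgC ((hCeq e he.1 heZ).ge (mem_cz_comm.mp he.2))
  have hcardg : Nat.card (cz g) = Nat.card (center G) * m := by
    have h1 : C.relIndex (cz g) ∣ m := hyi ▸ relIndex_dvd_index_of_normal C (cz g)
    have h2 : C.relIndex (cz g) = m := ((Nat.dvd_prime hp).mp h1).resolve_left
      fun e => hgC (relIndex_eq_one.mp e (self_mem_cz g))
    rw [← hCg, ← h2, ← inf_relIndex_right, ← Nat.card_congr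
      (subgroupOfEquivOfLe (inf_le_right : C ⊓ cz g ≤ cz g)).toEquiv]
    exact (card_mul_index _).symm
  have hcardC : Nat.card C = m * n * Nat.card (center G) := by
    have h1 := C.card_mul_index
    rw [← card_mul_index (cz g), hyi, hgi, hcardg] at h1
    refine Nat.eq_of_mul_eq_mul_right hp.pos ?_
    rw [h1]; ring
  have hn0 : n ≠ 0 := by have := h.one_lt_n; omega
  have hfCZ : (Nat.card C).factorization m = (Nat.card (center G)).factorization m + 1 := by
    rw [hcardC, Nat.factorization_mul (Nat.mul_ne_zero hp.ne_zero hn0) Nat.card_pos.ne',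
      Nat.factorization_mul hp.ne_zero hn0, Finsupp.add_apply, Finsupp.add_apply,
      hp.factorization_self, Nat.factorization_eq_zero_of_not_dvd (h.not_dvd_n hp dvd_rfl)]
    ring
  -- the `p'`-parts
  have hpart : ∀ D : Subgroup G, (∀ a ∈ D, ∀ b ∈ D, a * b = b * a) →
      ∃ N : Subgroup G, (∀ t, t ∈ N ↔ t ∈ D ∧ ¬ m ∣ orderOf t) ∧ (Nat.card N).Coprime m ∧
        Nat.card N * m ^ (Nat.card D).factorization m = Nat.card D := by
    intro D hD
    let N : Subgroup G :=
      { carrier := {t | t ∈ D ∧ ¬ m ∣ orderOf t}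
        one_mem' := ⟨D.one_mem, by rw [orderOf_one]; exact hp.not_dvd_one⟩
        mul_mem' := by
          rintro a b ⟨ha, ha'⟩ ⟨hb, hb'⟩
          refine ⟨D.mul_mem ha hb, fun hd => ?_⟩
          rcases hp.dvd_mul.mp (hd.trans (Commute.orderOf_mul_dvd_mul_orderOf (hD a ha b hb)))
            with e | e
          · exact ha' e
          · exact hb' e
        inv_mem' := by
          rintro a ⟨ha, ha'⟩
          exact ⟨D.inv_mem ha, by rwa [orderOf_inv]⟩ }
    have hND : N ≤ D := fun t ht => ht.1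
    have hcop : (Nat.card N).Coprime m := (hp.coprime_iff_not_dvd.mpr fun hd => by
      obtain ⟨⟨t, ht⟩, hto⟩ := exists_prime_orderOf_dvd_card' m hd
      rw [orderOf_mk] at hto
      exact ht.2 hto.symm.dvd).symm
    refine ⟨N, fun t => Iff.rfl, hcop, ?_⟩
    haveI : (N.subgroupOf D).Normal := ⟨fun a ha b => by
      rw [show b * a * b⁻¹ = a from Subtype.ext (by
        show (b : G) * a * (b : G)⁻¹ = a
        rw [hD b b.2 a a.2, mul_inv_cancel_right])]
      exact ha⟩
    have hq : IsPGroup m (D ⧸ N.subgroupOf D) := by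
      intro x
      obtain ⟨t, rfl⟩ := QuotientGroup.mk_surjective x
      refine ⟨(orderOf (t : G)).factorization m, ?_⟩
      rw [← QuotientGroup.mk_pow, QuotientGroup.eq_one_iff, mem_subgroupOf]
      refine ⟨D.pow_mem t.2 _, ?_⟩
      show ¬ m ∣ orderOf ((t : G) ^ m ^ (orderOf (t : G)).factorization m)
      rw [orderOf_pow_of_dvd (pow_ne_zero _ hp.ne_zero) (Nat.ordProj_dvd _ m)]
      exact Nat.not_dvd_ordCompl hp (orderOf_pos _).ne'
    obtain ⟨k, hk⟩ := IsPGroup.iff_card.mp hq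
    have h1 : Nat.card N * m ^ k = Nat.card D := by
      rw [← hk, ← Nat.card_congr (subgroupOfEquivOfLe hND).toEquiv, ← index_eq_card]
      exact card_mul_index _
    have h2 := congrArg (fun e => e.factorization m) h1
    simp only [Nat.factorization_mul Nat.card_pos.ne' (pow_ne_zero _ hp.ne_zero), Finsupp.add_apply,
      hp.factorization_pow, Finsupp.single_eq_same] at h2
    rw [Nat.factorization_eq_zero_of_not_dvd
      ((hp.coprime_iff_not_dvd).mp hcop.symm), zero_add] at h2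
    rw [← h2]; exact h1
  obtain ⟨N, hNmem, hNco, hNcard⟩ := hpart C hCab
  obtain ⟨NZ, hNZmem, hNZco, hNZcard⟩ :=
    hpart (center G) (fun a ha b _ => (mem_center_iff.mp ha b).symm)
  have hnN : Nat.card N = n * Nat.card NZ := by
    refine Nat.eq_of_mul_eq_mul_right (pow_pos hp.pos ((Nat.card C).factorization m)) ?_
    rw [hNcard, hcardC]
    conv_lhs => rw [← hNZcard]
    rw [← hcardC, hfCZ, pow_succ]; ring
  have hNn : N.Normal := ⟨fun t ht a => (hNmem _).mpr ⟨hCn.conj_mem t ((hNmem t).mp ht).1 a, by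
    rw [← MulAut.conj_apply, MulEquiv.orderOf_eq]; exact ((hNmem t).mp ht).2⟩⟩
  refine ⟨hp, ?_, ⟨C, hCn, Set.ext hset, hyi, ⟨⟨fun a b => Subtype.ext (hCab a a.2 b b.2)⟩⟩⟩,
    ⟨N, hNn, hNco, (Nat.card C).factorization m + 1, ?_⟩, ?_⟩
  · -- `m ∣ n - 1`
    letI act : MulAction (zpowers g) N :=
      { smul := fun a t => ⟨(a : G) * t * (a : G)⁻¹, hNn.conj_mem t t.2 a⟩
        one_smul := fun t => Subtype.ext (show (1 : G) * t * 1⁻¹ = t by simp)
        mul_smul := fun a k t => Subtype.ext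
          (show (a : G) * k * t * ((a : G) * k)⁻¹ = a * (k * t * (k : G)⁻¹) * (a : G)⁻¹ by
            simp [mul_assoc]) }
    have h1 := (IsPEl.of_mem hP.isPGroup hgP).isPGroup_zpowers.card_modEq_card_fixedPoints N
    have h2 : Nat.card (MulAction.fixedPoints (zpowers g) N) = Nat.card NZ := by
      have hfix : ∀ t : N, t ∈ MulAction.fixedPoints (zpowers g) N ↔ (t : G) ∈ center G := by
        intro t
        constructor
        · intro ht
          have e : g * (t : G) * g⁻¹ = t := congrArg Subtype.val (ht ⟨g, mem_zpowers g⟩)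
          exact hCg.le ⟨((hNmem _).mp t.2).1, mem_cz_comm.mp (mem_cz.mpr (mul_inv_eq_iff_eq_mul.mp e))⟩
        · intro ht a
          exact Subtype.ext (show (a : G) * t * (a : G)⁻¹ = t by
            rw [mem_center_iff.mp ht (a : G), mul_inv_cancel_right])
      exact Nat.card_congr
        { toFun := fun t => ⟨(t.1 : G), (hNZmem _).mpr ⟨(hfix _).mp t.2, ((hNmem _).mp t.1.2).2⟩⟩
          invFun := fun t => ⟨⟨t, (hNmem _).mpr ⟨center_le_cz y ((hNZmem _).mp t.2).1,
            ((hNZmem _).mp t.2).2⟩⟩, (hfix _).mpr ((hNZmem _).mp t.2).1⟩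
          left_inv := fun _ => rfl
          right_inv := fun _ => rfl }
    rw [h2, hnN] at h1
    have h3 : n * Nat.card NZ ≡ 1 * Nat.card NZ [MOD m] := by rwa [one_mul]
    exact (Nat.modEq_iff_dvd' h.one_lt_n.le).mp (h3.cancel_right_of_coprime hNZco.symm).symm
  · -- the index of `N`
    refine Nat.eq_of_mul_eq_mul_left (Nat.card_pos (α := N)) ?_
    rw [card_mul_index, pow_succ, ← mul_assoc, hNcard, ← hyi, card_mul_index]
  · -- derived subgroups of Sylow subgroups
    intro S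
    have hS : IsSylowIn m (S : Subgroup G) ⊤ := ⟨le_top, by rw [S.card_eq_multiplicity, card_top]⟩
    have hPCS : PC ≤ (S : Subgroup G) :=
      (hS.eq_of_le (hPC.isPGroup.to_sup_of_normal_left hS.isPGroup) le_sup_right le_top).ge.trans'
        le_sup_left
    have hSC : (S : Subgroup G) ⊓ C = PC :=
      (hPC.eq_of_le (hS.isPGroup.to_le inf_le_left) (le_inf hPCS hPC.1) inf_le_right).symm
    have hidx : (PC.subgroupOf (S : Subgroup G)).index = m := by
      refine Nat.eq_of_mul_eq_mul_left (Nat.card_pos (α := PC.subgroupOf (S : Subgroup G))) ?_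
      rw [card_mul_index, Nat.card_congr (subgroupOfEquivOfLe hPCS).toEquiv, hS.2, hPC.2, card_top,
        ← pow_succ, hfC]
    haveI : (PC.subgroupOf (S : Subgroup G)).Normal := hPCn.subgroupOf _
    obtain ⟨x, hxS, hxC⟩ : ∃ x ∈ (S : Subgroup G), x ∉ C := by
      by_contra hcon
      push Not at hcon
      have h2 := Nat.le_of_dvd (pow_pos hp.pos _) (card_dvd_ordProj hS.isPGroup hcon)
      rw [hS.2, card_top, Nat.pow_le_pow_iff_right hp.one_lt] at h2
      omega
    have hcomm' : commutator (PC.subgroupOf (S : Subgroup G)) = ⊥ := by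
      rw [commutator_eq_bot_iff_center_eq_top, eq_top_iff]
      intro a _
      exact mem_center_iff.mpr fun b => Subtype.ext (Subtype.ext
        (hCab _ (hPC.1 b.2) _ (hPC.1 a.2)))
    have key := H43.card_centralizer_mul_card_commutator (PC.subgroupOf (S : Subgroup G))
      (hidx.symm ▸ hp) (x := ⟨x, hxS⟩) (fun hc => hxC (hPC.1 hc))
    rw [hcomm', Subgroup.map_bot, Subgroup.card_bot, mul_one,
      Nat.card_congr (subgroupOfEquivOfLe hPCS).toEquiv] at key
    obtain ⟨T, hT, -⟩ :=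
      exists_isSylowIn (IsPGroup.of_bot : IsPGroup m (⊥ : Subgroup G)) (bot_le : ⊥ ≤ center G)
    have hTmem : ∀ a, a ∈ T ↔ a ∈ PC ∧ a ∈ center G := fun a =>
      ⟨fun ha => ⟨hPC.mem_of_commute (IsPEl.of_mem hT.isPGroup ha) (center_le_cz y (hT.1 ha))
          (fun b _ => mem_cz.mpr (mem_center_iff.mp (hT.1 ha) b)), hT.1 ha⟩,
        fun ha => hT.mem_of_commute (IsPEl.of_mem hPC.isPGroup ha.1) ha.2
          (fun b _ => mem_cz.mpr (mem_center_iff.mp ha.2 b))⟩
    have hzero : ∀ a : PC.subgroupOf (S : Subgroup G),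
        (⟨x, hxS⟩ : (S : Subgroup G)) * (a : (S : Subgroup G)) * (⟨x, hxS⟩ : (S : Subgroup G))⁻¹ *
          (a : (S : Subgroup G))⁻¹ ∈ (⊥ : Subgroup (S : Subgroup G)) ↔ ((a : (S : Subgroup G)) : G) ∈ center G := by
      intro a
      rw [Subgroup.mem_bot, mul_inv_eq_one, mul_inv_eq_iff_eq_mul]
      constructor
      · intro e
        by_contra haZ
        exact hxC ((hCeq _ (hPC.1 a.2) haZ).ge (mem_cz.mpr (congrArg Subtype.val e)))
      · intro ha
        exact Subtype.ext (mem_center_iff.mp ha x)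
    have hcount : Nat.card {a : PC.subgroupOf (S : Subgroup G) //
        (⟨x, hxS⟩ : (S : Subgroup G)) * (a : (S : Subgroup G)) * (⟨x, hxS⟩ : (S : Subgroup G))⁻¹ *
          (a : (S : Subgroup G))⁻¹ ∈ (⊥ : Subgroup (S : Subgroup G))} = Nat.card T :=
      Nat.card_congr
        { toFun := fun a => ⟨((a.1 : (S : Subgroup G)) : G), (hTmem _).mpr ⟨a.1.2, (hzero _).mp a.2⟩⟩
          invFun := fun a => ⟨⟨⟨a, hPCS ((hTmem _).mp a.2).1⟩, ((hTmem _).mp a.2).1⟩,
            (hzero _).mpr ((hTmem _).mp a.2).2⟩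
          left_inv := fun _ => rfl
          right_inv := fun _ => rfl }
    rw [hcount, hT.2, hPC.2, hfCZ, pow_succ] at key
    exact Nat.eq_of_mul_eq_mul_left (pow_pos hp.pos _) key

end OneMMn

end Cfsg.Agent.H89
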