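import Mathlib
import Cfsg.Agent.H19.Gaschutz

/-!
# Gaschütz's theorem, local form

An abelian normal subgroup has a complement as soon as, for each prime `p` dividing its index, it
has one in some subgroup of index prime to `p`.
-/

open scoped Pointwise IsMulCommutative

namespace Cfsg.Agent.H89

open Cfsg.Agent.H19

variable {G : Type*} [Group G] {K : Subgroup G} [K.Normal]

/-- Transfer of a crossed homomorphism: on `K` it is the power by the index (after H19's proof). -/
theorem exists_crossed_pow_index [Finite G] [IsMulCommutative K] {U : Subgroup G} (hKU : K ≤ U)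
    {f : G → K} (hf : IsCrossedOn U f)
    (hid : ∀ k : K, f k = k) :
    ∃ F : G → K, IsCrossedOn ⊤ F ∧ ∀ k : K, F k = k ^ U.index := by
  classical
  have := Fintype.ofFinite (G ⧸ U)
  set o : G → G := fun x => Quotient.out (QuotientGroup.mk x : G ⧸ U) with ho
  have ho' : ∀ x, (o x)⁻¹ * x ∈ U := fun x => QuotientGroup.eq.1 (QuotientGroup.out_eq' _)
  set φ : G → K := fun x => MulAut.conjNormal (o x) (f ((o x)⁻¹ * x)) with hφ
  have hφu : ∀ x, ∀ u ∈ U, φ (x * u) = φ x * MulAut.conjNormal x (f u) := by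
    intro x u hu
    have hox : o (x * u) = o x := by
      simp only [ho]
      rw [QuotientGroup.mk_mul_of_mem x hu]
    simp only [hφ, hox]
    rw [← mul_assoc, hf _ (ho' x) _ hu, map_mul, ← MulAut.mul_apply, ← map_mul,
      mul_inv_cancel_left]
  set ψ : G → G → K := fun g x => φ (g * x) * (MulAut.conjNormal g (φ x))⁻¹ with hψ
  have hψu : ∀ g x, ∀ u ∈ U, ψ g (x * u) = ψ g x := by
    intro g x u hu
    simp only [hψ, ← mul_assoc, hφu _ _ hu, map_mul, ← MulAut.mul_apply]
    rw [mul_inv, mul_mul_mul_comm, mul_inv_cancel, mul_one]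
  have hψq : ∀ g x, ψ g (Quotient.out (QuotientGroup.mk x : G ⧸ U)) = ψ g x := by
    intro g x
    have h := (QuotientGroup.eq (s := U)).1 (QuotientGroup.out_eq' (QuotientGroup.mk x : G ⧸ U)).symm
    have h2 := hψu g x _ h
    rwa [mul_inv_cancel_left] at h2
  have hψmul : ∀ g g' x, ψ (g * g') x = ψ g (g' * x) * MulAut.conjNormal g (ψ g' x) := by
    intro g g' x
    simp only [hψ, mul_assoc g g' x, map_mul, map_inv, ← MulAut.mul_apply]
    rw [mul_assoc, inv_mul_cancel_left]
  set F : G → K := fun g => ∏ q : G ⧸ U, ψ g q.out with hF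
  have hFmul : ∀ g g', F (g * g') = F g * MulAut.conjNormal g (F g') := by
    intro g g'
    simp only [hF, hψmul, Finset.prod_mul_distrib, map_prod]
    congr 1
    apply Fintype.prod_equiv (MulAction.toPerm (β := G ⧸ U) g')
    intro q
    show ψ g (g' * q.out) = ψ g (g' • q).out
    rw [show (g' • q) = QuotientGroup.mk (g' * q.out) by
      conv_lhs => rw [← QuotientGroup.out_eq' q]
      rfl, hψq]
  have hFid : ∀ k : K, F k = k ^ U.index := by
    intro k
    have hψk : ∀ x, ψ k x = k := by
      intro x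
      have hk' : x⁻¹ * (k : G) * x ∈ K := by
        simpa using Subgroup.Normal.conj_mem ‹_› (k : G) k.2 x⁻¹
      simp only [hψ]
      rw [show (k : G) * x = x * (x⁻¹ * k * x) by group, hφu x _ (hKU hk'),
        show f (x⁻¹ * k * x) = ⟨_, hk'⟩ from hid ⟨_, hk'⟩, conjNormal_self,
        show MulAut.conjNormal x (⟨_, hk'⟩ : K) = k from
          Subtype.ext (by rw [MulAut.conjNormal_apply]; group)]
      rw [mul_comm, inv_mul_cancel_left]
    simp only [hF, hψk, Finset.prod_const, Finset.card_univ]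
    rw [Subgroup.index_eq_card, Nat.card_eq_fintype_card]
  exact ⟨F, fun a _ b _ => hFmul a b, hFid⟩

/-- **Gaschütz**: complements in subgroups of index prime to `p`, for all `p`, give a complement. -/
theorem exists_complement_of_local [Finite G] [IsMulCommutative K]
    (h : ∀ p : ℕ, p.Prime → p ∣ K.index →
      ∃ U A : Subgroup G, K ≤ U ∧ ¬ p ∣ U.index ∧ A ⊓ K = ⊥ ∧ K ⊔ A = U) :
    ∃ H : Subgroup G, Subgroup.IsComplement' K H := by
  let D : AddSubgroup ℤ :=
    { carrier := {d | ∃ F : G → K, IsCrossedOn ⊤ F ∧ ∀ k : K, F k = k ^ d}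
      zero_mem' := ⟨fun _ => 1, fun a _ b _ => by simp, fun k => by simp⟩
      add_mem' := by
        rintro d e ⟨F, hF, hFk⟩ ⟨F', hF', hFk'⟩
        refine ⟨fun g => F g * F' g, fun a ha b hb => ?_, fun k => ?_⟩
        · simp only [hF a ha b hb, hF' a ha b hb, map_mul, mul_mul_mul_comm]
        · simp only [hFk, hFk', zpow_add]
      neg_mem' := by
        rintro d ⟨F, hF, hFk⟩
        refine ⟨fun g => (F g)⁻¹, fun a ha b hb => ?_, fun k => ?_⟩
        · simp only [hF a ha b hb, map_inv, mul_inv]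
        · simp only [hFk, zpow_neg] }
  have hU : ∀ (U A : Subgroup G), K ≤ U → A ⊓ K = ⊥ → K ⊔ A = U → (U.index : ℤ) ∈ D := by
    intro U A hKU hAK hKA
    obtain ⟨f, hf, hid, -⟩ := exists_crossed_of_complement hAK hKA
    obtain ⟨F, hF, hFk⟩ := exists_crossed_pow_index hKU hf hid
    exact ⟨F, hF, fun k => by rw [hFk, zpow_natCast]⟩
  obtain ⟨g, hg⟩ := Int.subgroup_cyclic D
  have hdvd : ∀ d ∈ D, g ∣ d := by
    intro d hd
    rw [hg, ← AddSubgroup.zmultiples_eq_closure, Int.mem_zmultiples_iff] at hd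
    exact hd
  have h1 : g.natAbs = 1 := by
    by_contra hne
    obtain ⟨p, hp, hpd⟩ := Nat.exists_prime_and_dvd hne
    have hpK : p ∣ K.index := by
      have := hdvd _ (hU K ⊥ le_rfl (bot_inf_eq _) (sup_bot_eq _))
      exact hpd.trans (by simpa using Int.natAbs_dvd_natAbs.mpr this)
    obtain ⟨U, A, hKU, hpU, hAK, hKA⟩ := h p hp hpK
    exact hpU (hpd.trans (by simpa using Int.natAbs_dvd_natAbs.mpr (hdvd _ (hU U A hKU hAK hKA))))
  have hgD : g ∈ D := by
    rw [hg]; exact AddSubgroup.subset_closure rfl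
  have hone : (1 : ℤ) ∈ D := by
    rcases Int.natAbs_eq g with e | e <;> rw [h1, Nat.cast_one] at e <;> rw [e] at hgD
    · exact hgD
    · simpa using D.neg_mem hgD
  obtain ⟨F, hF, hFk⟩ := hone
  exact exists_complement_of_crossed hF fun k => by rw [hFk, zpow_one]

end Cfsg.Agent.H89
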