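import Mathlib

/-!
The theorem of Krull, Remak and Schmidt for finite groups.
-/

set_option autoImplicit false

universe u v

namespace Cfsg.Agent.H89

/-- A nontrivial group with no proper direct decomposition. -/
def IsIndecomposableGroup (A : Type*) [Group A] : Prop :=
  Nontrivial A ∧ ∀ H K : Subgroup A, H.Normal → K.Normal → H ⊓ K = ⊥ → H ⊔ K = ⊤ → H = ⊥ ∨ K = ⊥

/-- An endomorphism commuting with all inner automorphisms. -/
def IsNormalEndo {A : Type*} [Group A] (f : A →* A) : Prop :=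
  ∀ a x, f (a * x * a⁻¹) = a * f x * a⁻¹

variable {A : Type*} [Group A]

theorem exists_idempotent_pow (f : Monoid.End A) [Finite A] :
    ∃ n, 0 < n ∧ f ^ n * f ^ n = f ^ n := by
  haveI : Finite (Monoid.End A) := Finite.of_injective (fun g => (g : A → A)) DFunLike.coe_injective
  obtain ⟨i, j, hij, he⟩ := Finite.exists_ne_map_eq_of_infinite (fun k : ℕ => f ^ k)
  wlog hlt : i < j generalizing i j
  · exact this j i hij.symm he.symm (by omega)
  obtain ⟨d, hd, rfl⟩ : ∃ d, 0 < d ∧ j = i + d := ⟨j - i, by omega, by omega⟩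
  have hper : ∀ m t, i ≤ m → f ^ (m + t * d) = f ^ m := by
    intro m t hm
    induction t with
    | zero => simp
    | succ t ih =>
      obtain ⟨c, rfl⟩ := Nat.exists_eq_add_of_le hm
      rw [show i + c + (t + 1) * d = (i + d) + (c + t * d) by ring, pow_add, ← he, ← pow_add,
        ← add_assoc, ih]
  refine ⟨(i + 1) * d, Nat.mul_pos (Nat.succ_pos i) hd, ?_⟩
  rw [← pow_add]
  exact hper _ _ ((Nat.le_succ i).trans (Nat.le_mul_of_pos_right _ hd))

theorem isNormalEndo_pow {f : Monoid.End A} (hf : IsNormalEndo (f : A →* A)) (n : ℕ) :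
    IsNormalEndo ((f ^ n : Monoid.End A) : A →* A) := by
  induction n with
  | zero => intro a x; rfl
  | succ n ih =>
    intro a x
    rw [pow_succ]
    show (f ^ n) (f (a * x * a⁻¹)) = a * (f ^ n) (f x) * a⁻¹
    exact (congrArg (⇑(f ^ n)) (hf a x)).trans (ih a (f x))

/-- Fitting's lemma. -/
theorem bijective_or_pow_eq_one [Finite A] (hA : IsIndecomposableGroup A) (f : Monoid.End A)
    (hf : IsNormalEndo (f : A →* A)) :
    Function.Bijective f ∨ ∃ n, 0 < n ∧ ∀ x, (f ^ n) x = 1 := by
  obtain ⟨n, hn, he⟩ := exists_idempotent_pow f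
  set e : A →* A := f ^ n
  have hee : ∀ x, e (e x) = e x := fun x => DFunLike.congr_fun he x
  have hnorm : IsNormalEndo e := isNormalEndo_pow hf n
  have hrange : e.range.Normal := ⟨by
    rintro _ ⟨x, rfl⟩ a
    exact ⟨a * x * a⁻¹, hnorm a x⟩⟩
  have hinf : e.ker ⊓ e.range = ⊥ := by
    rw [eq_bot_iff]
    rintro _ ⟨hk, x, rfl⟩
    rw [Subgroup.mem_bot, ← hee x]
    exact hk
  have hsup : e.ker ⊔ e.range = ⊤ := by
    rw [eq_top_iff]
    intro x _
    rw [show x = x * (e x)⁻¹ * e x by group]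
    exact mul_mem (Subgroup.mem_sup_left (by
      rw [MonoidHom.mem_ker, map_mul, map_inv, hee, mul_inv_cancel]))
      (Subgroup.mem_sup_right ⟨x, rfl⟩)
  rcases hA.2 _ _ inferInstance hrange hinf hsup with h | h
  · left
    refine Finite.injective_iff_bijective.1 fun x y hxy => (MonoidHom.ker_eq_bot_iff e).1 h ?_
    obtain ⟨m, rfl⟩ := Nat.exists_eq_succ_of_ne_zero hn.ne'
    show (f ^ (m + 1)) x = (f ^ (m + 1)) y
    rw [pow_succ]
    show (f ^ m) (f x) = (f ^ m) (f y)
    rw [hxy]
  · right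
    exact ⟨n, hn, fun x => Subgroup.mem_bot.1 (h ▸ ⟨x, rfl⟩ : e x ∈ (⊥ : Subgroup A))⟩

/-- If the pointwise product of two normal endomorphisms is bijective, one of them is. -/
theorem bijective_of_mul_bijective [Finite A] (hA : IsIndecomposableGroup A) (φ ψ σ : A →* A)
    (hφ : IsNormalEndo φ) (hψ : IsNormalEndo ψ) (hσ : IsNormalEndo σ)
    (hmul : ∀ x, σ x = φ x * ψ x) (hbij : Function.Bijective σ) :
    Function.Bijective φ ∨ Function.Bijective ψ := by
  let e := MulEquiv.ofBijective σ hbij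
  have hsymm : ∀ a y, e.symm (a * y * a⁻¹) = a * e.symm y * a⁻¹ := fun a y =>
    e.injective (by
      show e (e.symm (a * y * a⁻¹)) = σ (a * e.symm y * a⁻¹)
      rw [e.apply_symm_apply, hσ]
      show a * y * a⁻¹ = a * e (e.symm y) * a⁻¹
      rw [e.apply_symm_apply])
  set φ' : Monoid.End A := e.symm.toMonoidHom.comp φ
  set ψ' : Monoid.End A := e.symm.toMonoidHom.comp ψ
  have hφ' : IsNormalEndo (φ' : A →* A) := fun a x => by
    show e.symm (φ (a * x * a⁻¹)) = a * e.symm (φ x) * a⁻¹
    rw [hφ, hsymm]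
  have hψ' : IsNormalEndo (ψ' : A →* A) := fun a x => by
    show e.symm (ψ (a * x * a⁻¹)) = a * e.symm (ψ x) * a⁻¹
    rw [hψ, hsymm]
  rcases bijective_or_pow_eq_one hA φ' hφ' with h | ⟨n, hn, hnil⟩
  · left
    exact (Function.Bijective.of_comp_iff' e.symm.bijective φ).1 h
  rcases bijective_or_pow_eq_one hA ψ' hψ' with h | ⟨m, hm, hnil'⟩
  · right
    exact (Function.Bijective.of_comp_iff' e.symm.bijective ψ).1 h
  exfalso
  haveI := hA.1
  obtain ⟨x, hx⟩ := exists_ne (1 : A)
  classical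
  have hex : ∃ k, (φ' ^ k) x = 1 := ⟨n, hnil x⟩
  have hk0 : Nat.find hex ≠ 0 := fun h => hx (by
    have := Nat.find_spec hex
    rw [h, pow_zero] at this
    exact this)
  obtain ⟨k, hk⟩ := Nat.exists_eq_succ_of_ne_zero hk0
  set y := (φ' ^ k) x
  have hy1 : y ≠ 1 := Nat.find_min hex (hk ▸ Nat.lt_succ_self k)
  have hy2 : φ' y = 1 := by
    have h1 := Nat.find_spec hex
    rw [hk, pow_succ'] at h1
    exact h1
  have hy3 : ψ' y = y := by
    show e.symm (ψ y) = y
    have hφy : φ y = 1 := e.symm.injective (hy2.trans (map_one e.symm).symm)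
    rw [show ψ y = e y from (by
      show ψ y = σ y
      rw [hmul, hφy, one_mul]), e.symm_apply_apply]
  have hpow : ∀ i, (ψ' ^ i) y = y := by
    intro i
    induction i with
    | zero => rfl
    | succ i ih =>
      rw [pow_succ]
      show (ψ' ^ i) (ψ' y) = y
      rw [hy3, ih]
  exact hy1 ((hpow m).symm.trans (hnil' y))

theorem isNormalEndo_mk {f : A →* A} (h : ∀ a x, f (a * x * a⁻¹) = a * f x * a⁻¹) :
    IsNormalEndo f := h

/-- One step of the exchange. -/
theorem exists_factor_equiv {ι : Type*} [Fintype ι] [DecidableEq ι] {A₀ C : Type*} [Group A₀] [Group C]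
    [Finite A₀] {B : ι → Type*} [∀ j, Group (B j)] [∀ j, Finite (B j)]
    (hA₀ : IsIndecomposableGroup A₀) (hB : ∀ j, IsIndecomposableGroup (B j))
    (e : A₀ × C ≃* ((j : ι) → B j)) :
    ∃ j, Nonempty (A₀ ≃* B j) ∧ ∀ c : C, (∀ k, k ≠ j → e (1, c) k = 1) → c = 1 := by
  let Φ : Finset ι → (A₀ →* A₀) := fun s =>
    ((MonoidHom.fst A₀ C).comp e.symm.toMonoidHom).comp
      { toFun := fun a k => if k ∈ s then e (a, 1) k else 1
        map_one' := funext fun k => by
          rw [show ((1 : A₀), (1 : C)) = 1 from rfl, map_one]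
          simp
        map_mul' := fun a b => funext fun k => by
          show _ = (if k ∈ s then e (a, 1) k else 1) * (if k ∈ s then e (b, 1) k else 1)
          split
          · rw [← Pi.mul_apply, ← map_mul, Prod.mk_mul_mk, mul_one]
          · rw [mul_one] }
  have hΦ : ∀ s a, Φ s a = (e.symm fun k => if k ∈ s then e (a, 1) k else 1).1 := fun s a => rfl
  have hnorm : ∀ s, IsNormalEndo (Φ s) := by
    intro s a x
    have key : (fun k => if k ∈ s then e (a * x * a⁻¹, 1) k else 1) =
        e (a, 1) * (fun k => if k ∈ s then e (x, 1) k else 1) * (e (a, 1))⁻¹ := by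
      funext k
      show _ = e (a, 1) k * (if k ∈ s then e (x, 1) k else 1) * (e (a, 1) k)⁻¹
      split
      · rw [show ((a * x * a⁻¹, 1) : A₀ × C) = (a, 1) * (x, 1) * (a, 1)⁻¹ by simp, map_mul,
          map_mul, map_inv]
        rfl
      · rw [mul_one, mul_inv_cancel]
    rw [hΦ, hΦ, key, map_mul, map_mul, map_inv, e.symm_apply_apply]
    rfl
  have hone : Φ Finset.univ = MonoidHom.id A₀ := by
    ext a
    rw [hΦ]
    simp
  have hins : ∀ s j, j ∉ s → ∀ a, Φ (insert j s) a = Φ {j} a * Φ s a := by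
    intro s j hj a
    rw [hΦ, hΦ, hΦ, ← Prod.fst_mul, ← map_mul]
    congr 2
    funext k
    by_cases hk : k = j
    · subst hk; simp [hj]
    · simp [hk]
  have hex : ∀ s, Function.Bijective (Φ s) → ∃ j ∈ s, Function.Bijective (Φ {j}) := by
    intro s
    induction s using Finset.induction_on with
    | empty =>
      intro h
      haveI := hA₀.1
      obtain ⟨x, hx⟩ := exists_ne (1 : A₀)
      refine absurd (h.1 ?_) hx
      rw [hΦ, hΦ]
      simp
    | insert j s hj ih =>
      intro h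
      rcases bijective_of_mul_bijective hA₀ _ _ _ (hnorm {j}) (hnorm s) (hnorm (insert j s))
        (hins s j hj) h with h1 | h1
      · exact ⟨j, Finset.mem_insert_self j s, h1⟩
      · obtain ⟨i, hi, hi'⟩ := ih h1
        exact ⟨i, Finset.mem_insert_of_mem hi, hi'⟩
  obtain ⟨j, -, hj⟩ := hex Finset.univ (hone ▸ Function.bijective_id)
  let α : A₀ →* B j :=
    ((Pi.evalMonoidHom B j).comp e.toMonoidHom).comp (MonoidHom.inl A₀ C)
  let β : B j →* A₀ :=
    ((MonoidHom.fst A₀ C).comp e.symm.toMonoidHom).comp (MonoidHom.mulSingle B j)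
  have hβα : ∀ a, β (α a) = Φ {j} a := by
    intro a
    rw [hΦ]
    show (e.symm (Pi.mulSingle j (e (a, 1) j))).1 = _
    congr 2
    funext k
    by_cases hk : k = j
    · subst hk; simp
    · simp [hk]
  have hαinj : Function.Injective α := fun a b h => hj.1 (by rw [← hβα, ← hβα, h])
  have hαn : α.range.Normal := by
    refine ⟨?_⟩
    rintro _ ⟨a, rfl⟩ b
    obtain ⟨⟨g₁, g₂⟩, hg⟩ := e.surjective (Pi.mulSingle j b)
    refine ⟨g₁ * a * g₁⁻¹, ?_⟩
    show e (g₁ * a * g₁⁻¹, 1) j = b * e (a, 1) j * b⁻¹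
    rw [show ((g₁ * a * g₁⁻¹, 1) : A₀ × C) = (g₁, g₂) * (a, 1) * (g₁, g₂)⁻¹ by simp, map_mul,
      map_mul, map_inv, hg]
    simp
  have hinf : α.range ⊓ β.ker = ⊥ := by
    rw [eq_bot_iff]
    rintro _ ⟨⟨a, rfl⟩, hk⟩
    have h0 : Φ {j} a = 1 := (hβα a).symm.trans hk
    rw [Subgroup.mem_bot, hj.1 (h0.trans (map_one _).symm), map_one]
  have hsup : α.range ⊔ β.ker = ⊤ := by
    rw [eq_top_iff]
    intro b _
    obtain ⟨a, ha⟩ := hj.2 (β b)
    rw [show b = α a * ((α a)⁻¹ * b) by group]
    refine mul_mem (Subgroup.mem_sup_left ⟨a, rfl⟩) (Subgroup.mem_sup_right ?_)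
    rw [MonoidHom.mem_ker, map_mul, map_inv, hβα, ha, inv_mul_cancel]
  have hker : β.ker = ⊥ := by
    rcases (hB j).2 _ _ hαn inferInstance hinf hsup with h | h
    · exfalso
      haveI := hA₀.1
      obtain ⟨x, hx⟩ := exists_ne (1 : A₀)
      have h1 : α x ∈ α.range := ⟨x, rfl⟩
      rw [h, Subgroup.mem_bot] at h1
      exact hx (hαinj (h1.trans (map_one α).symm))
    · exact h
  have hαsurj : Function.Surjective α := by
    rw [← MonoidHom.range_eq_top]
    rwa [hker, sup_bot_eq] at hsup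
  refine ⟨j, ⟨MulEquiv.ofBijective α ⟨hαinj, hαsurj⟩⟩, fun c hc => ?_⟩
  have hsingle : Pi.mulSingle j (e (1, c) j) = e (1, c) := by
    funext k
    by_cases hk : k = j
    · subst hk; simp
    · simp [hk, hc k hk]
  have h1 : β (e (1, c) j) = 1 := by
    show (e.symm (Pi.mulSingle j (e (1, c) j))).1 = 1
    rw [hsingle, e.symm_apply_apply]
  have h2 : e (1, c) j = 1 := Subgroup.mem_bot.1 (hker ▸ (MonoidHom.mem_ker.2 h1))
  have h3 : e (1, c) = 1 := by
    rw [← hsingle, h2, Pi.mulSingle_one]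
  have h4 : ((1, c) : A₀ × C) = 1 := e.injective (h3.trans (map_one e).symm)
  exact congrArg Prod.snd h4

/-- **Krull–Remak–Schmidt** for finite groups. -/
theorem krull_schmidt : ∀ {m n : ℕ} {A : Fin m → Type u} {B : Fin n → Type v}
    [∀ i, Group (A i)] [∀ j, Group (B j)] [∀ i, Finite (A i)] [∀ j, Finite (B j)],
    (∀ i, IsIndecomposableGroup (A i)) → (∀ j, IsIndecomposableGroup (B j)) →
    (((i : Fin m) → A i) ≃* ((j : Fin n) → B j)) →
    ∃ σ : Fin m ≃ Fin n, ∀ i, Nonempty (A i ≃* B (σ i)) := by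
  intro m
  induction m with
  | zero =>
    intro n A B _ _ _ _ _ hB e
    rcases n with _ | n
    · exact ⟨Equiv.refl _, fun i => i.elim0⟩
    · exfalso
      haveI := (hB 0).1
      obtain ⟨b, hb⟩ := exists_ne (1 : B 0)
      apply hb
      have h : Pi.mulSingle (0 : Fin (n + 1)) b = 1 :=
        e.symm.injective (Subsingleton.elim _ _)
      simpa using congrFun h 0
  | succ m ih =>
    intro n A B _ _ _ _ hA hB e
    rcases n with _ | n
    · exfalso
      haveI := (hA 0).1
      obtain ⟨a, ha⟩ := exists_ne (1 : A 0)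
      apply ha
      have h : Pi.mulSingle (0 : Fin (m + 1)) a = 1 := e.injective (Subsingleton.elim _ _)
      simpa using congrFun h 0
    let e₀ : A 0 × ((i : Fin m) → A i.succ) ≃* ((i : Fin (m + 1)) → A i) :=
      { Fin.consEquiv A with
        map_mul' := fun x y => funext fun i => by
          refine Fin.cases ?_ (fun i => ?_) i <;> simp }
    obtain ⟨j, ⟨α⟩, hj⟩ := exists_factor_equiv (hA 0) hB (e₀.trans e)
    let ψ : ((i : Fin m) → A i.succ) →* ((k : Fin n) → B (j.succAbove k)) :=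
      { toFun := fun c k => (e₀.trans e) (1, c) (j.succAbove k)
        map_one' := funext fun k => by show (e₀.trans e) 1 _ = _; rw [map_one]; rfl
        map_mul' := fun c c' => funext fun k => by
          rw [show ((1, c * c') : A 0 × _) = (1, c) * (1, c') by simp, map_mul]; rfl }
    have hψ : Function.Injective ψ := by
      rw [injective_iff_map_eq_one]
      intro c hc
      refine hj c fun k hk => ?_
      obtain ⟨l, rfl⟩ := Fin.exists_succAbove_eq hk
      exact congrFun hc l
    have hcard : Nat.card ((k : Fin n) → B (j.succAbove k)) =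
        Nat.card ((i : Fin m) → A i.succ) := by
      have h1 := Nat.card_congr e.toEquiv
      rw [Nat.card_pi, Nat.card_pi, Fin.prod_univ_succ, Fin.prod_univ_succAbove _ j,
        Nat.card_congr α.toEquiv] at h1
      rw [Nat.card_pi, Nat.card_pi]
      exact (Nat.eq_of_mul_eq_mul_left Nat.card_pos h1).symm
    obtain ⟨σ, hσ⟩ := ih (fun i => hA i.succ) (fun k => hB (j.succAbove k))
      (MulEquiv.ofBijective ψ (hψ.bijective_of_nat_card_le hcard.le))
    refine ⟨(finSuccEquiv m).trans ((Equiv.optionCongr σ).trans (finSuccEquiv' j).symm), fun i => ?_⟩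
    refine Fin.cases ?_ (fun i => ?_) i
    · simp only [Equiv.trans_apply, finSuccEquiv_zero, Equiv.optionCongr_apply, Option.map_none,
        finSuccEquiv'_symm_none]
      exact ⟨α⟩
    · simp only [Equiv.trans_apply, finSuccEquiv_succ, Equiv.optionCongr_apply, Option.map_some,
        finSuccEquiv'_symm_some]
      exact hσ i

end Cfsg.Agent.H89
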