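import Cfsg.Agent.H99.Aschbacher.Clifford

/-!
# Fixed-point spaces in primitive soluble linear groups

A maximal normal subgroup `E` of class at most two of a soluble group contains its centralizer.
In a primitive linear group a nontrivial element of the centre of `E` has no fixed points, so a
nontrivial element of `E` fixes at most half of the space, and every element at most three quarters.
-/

set_option autoImplicit false
set_option backward.isDefEq.respectTransparency false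

open scoped MatrixGroups Matrix commutatorElement

namespace Cfsg.Agent.H89.FixedSpace

open Subgroup

/-- Commutators of elements of `E` are central in `E`. -/
def ClassTwo {G : Type*} [Group G] (E : Subgroup G) : Prop :=
  ∀ a ∈ E, ∀ b ∈ E, ∀ c ∈ E, c * ⁅a, b⁆ = ⁅a, b⁆ * c

/-- A soluble group has a normal subgroup of class at most two containing its centralizer. -/
theorem exists_classTwo_centralizer_le (G : Type*) [Group G] [Finite G] (hsol : Group.IsSolvable G) :
    ∃ E : Subgroup G, E.Normal ∧ ClassTwo E ∧ centralizer (E : Set G) ≤ E := by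
  classical
  obtain ⟨E, ⟨hEn, hE2⟩, hmax⟩ :=
    (Set.toFinite {E : Subgroup G | E.Normal ∧ ClassTwo E}).exists_maximal
      ⟨⊥, inferInstance, fun a ha b hb c hc => by
        rw [mem_bot] at ha hb hc; subst ha hb hc; simp⟩
  refine ⟨E, hEn, hE2, ?_⟩
  haveI := hEn
  set C := centralizer (E : Set G) with hC
  haveI : C.Normal := inferInstance
  by_contra hnle
  obtain ⟨S, hS0, hS1⟩ : ∃ S : ℕ → Subgroup G, S 0 = C ∧ ∀ k, S (k + 1) = ⁅S k, S k⁆ :=
    ⟨fun k => Nat.rec (motive := fun _ => Subgroup G) C (fun _ X => ⁅X, X⁆) k, rfl, fun _ => rfl⟩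
  have hSn : ∀ k, (S k).Normal := by
    intro k
    induction k with
    | zero => rw [hS0]; infer_instance
    | succ k ih => rw [hS1]; exact @Subgroup.commutator_normal G _ (S k) (S k) ih ih
  have hSle : ∀ k, S k ≤ derivedSeries G k := by
    intro k
    induction k with
    | zero => exact le_top
    | succ k ih => rw [hS1]; exact commutator_mono ih ih
  obtain ⟨N, hN⟩ := hsol.solvable
  obtain ⟨k, hk2, hk1⟩ : ∃ k, ¬ S k ≤ E ∧ ⁅S k, S k⁆ ≤ E := by
    by_contra hcon
    push Not at hcon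
    have h : ∀ k, ¬ S k ≤ E := fun k =>
      Nat.rec (by rw [hS0]; exact hnle) (fun k ih => by rw [hS1]; exact hcon k ih) k
    exact h N ((hSle N).trans (hN.le.trans bot_le))
  have hSC : ∀ j, S j ≤ C := by
    intro j
    induction j with
    | zero => exact hS0.le
    | succ j ih => rw [hS1]; exact ((S j).commutator_le_self).trans ih
  haveI := hSn k
  suffices hcl : ClassTwo (E ⊔ S k) from
    hk2 (le_trans le_sup_right
      (hmax (y := E ⊔ S k) ⟨Subgroup.sup_normal E (S k), hcl⟩ le_sup_left))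
  have hcm : ∀ e ∈ E, ∀ x ∈ S k, Commute e x := fun e he x hx =>
    mem_centralizer_iff.mp (hSC k hx) e he
  intro a ha b hb c hc
  obtain ⟨a1, ha1, a2, ha2, rfl⟩ := mem_sup_of_normal_left.mp ha
  obtain ⟨b1, hb1, b2, hb2, rfl⟩ := mem_sup_of_normal_left.mp hb
  obtain ⟨c1, hc1, c2, hc2, rfl⟩ := mem_sup_of_normal_left.mp hc
  have h12 : ⁅a1 * a2, b1 * b2⁆ = ⁅a1, b1⁆ * ⁅a2, b2⁆ := by
    have e1 : Commute a2 b1 := (hcm b1 hb1 a2 ha2).symm
    have e2 : Commute a1⁻¹ b2 := (hcm a1 ha1 b2 hb2).inv_left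
    have e3 : Commute (b1⁻¹) (a2 * b2 * a2⁻¹ * b2⁻¹) :=
      hcm _ (E.inv_mem hb1) _ (mul_mem (mul_mem (mul_mem ha2 hb2) (inv_mem ha2)) (inv_mem hb2))
    simp only [commutatorElement_def, mul_inv_rev]
    calc a1 * a2 * (b1 * b2) * (a2⁻¹ * a1⁻¹) * (b2⁻¹ * b1⁻¹)
        = a1 * (a2 * b1) * b2 * a2⁻¹ * (a1⁻¹ * b2⁻¹) * b1⁻¹ := by group
      _ = a1 * b1 * (a2 * b2 * a2⁻¹ * b2⁻¹ * a1⁻¹) * b1⁻¹ := by
          rw [e1.eq, e2.inv_right.eq]; group
      _ = a1 * b1 * (a1⁻¹ * (a2 * b2 * a2⁻¹ * b2⁻¹)) * b1⁻¹ := by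
          rw [(hcm _ (E.inv_mem ha1) _ (mul_mem (mul_mem (mul_mem ha2 hb2) (inv_mem ha2)) (inv_mem hb2))).eq]
      _ = a1 * b1 * a1⁻¹ * (b1⁻¹ * (a2 * b2 * a2⁻¹ * b2⁻¹)) := by rw [e3.eq]; group
      _ = _ := by group
  have h2E : ⁅a2, b2⁆ ∈ E := hk1 (commutator_mem_commutator ha2 hb2)
  have h2C : ⁅a2, b2⁆ ∈ S k := by
    rw [commutatorElement_def]
    exact mul_mem (mul_mem (mul_mem ha2 hb2) (inv_mem ha2)) (inv_mem hb2)
  have h1E : ⁅a1, b1⁆ ∈ E := by
    rw [commutatorElement_def]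
    exact mul_mem (mul_mem (mul_mem ha1 hb1) (inv_mem ha1)) (inv_mem hb1)
  have k1 : Commute c1 ⁅a1, b1⁆ := hE2 a1 ha1 b1 hb1 c1 hc1
  have k2 : Commute c1 ⁅a2, b2⁆ := hcm c1 hc1 _ h2C
  have k3 : Commute c2 ⁅a1, b1⁆ := (hcm _ h1E c2 hc2).symm
  have k4 : Commute c2 ⁅a2, b2⁆ := (hcm _ h2E c2 hc2).symm
  rw [h12]
  exact ((k1.mul_right k2).mul_left (k3.mul_right k4)).eq

variable {F : Type*} [Field F] [Fintype F] {n : ℕ}

/-- The fixed space of a matrix. -/
abbrev fixedSpace (g : GL (Fin n) F) : Submodule F (Fin n → F) :=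
  Module.End.eigenspace (Matrix.toLin' (g : Matrix (Fin n) (Fin n) F)) 1

theorem mem_fixedSpace {g : GL (Fin n) F} {v : Fin n → F} :
    v ∈ fixedSpace g ↔ (g : Matrix (Fin n) (Fin n) F) *ᵥ v = v := by
  simp [fixedSpace, Matrix.toLin'_apply]

theorem two_mul_finrank_le (g x : GL (Fin n) F) :
    2 * Module.finrank F (fixedSpace g) ≤ n + Module.finrank F (fixedSpace ⁅g, x⁆) := by
  let W := (fixedSpace g).map (Matrix.toLin' (x : Matrix (Fin n) (Fin n) F))
  have hW : Module.finrank F W = Module.finrank F (fixedSpace g) :=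
    ((fixedSpace g).equivMapOfInjective _
      (Matrix.mulVec_injective_of_isUnit (Units.isUnit x))).finrank_eq.symm
  have hle : fixedSpace g ⊓ W ≤ fixedSpace ⁅g, x⁆ := by
    rintro v ⟨hv, w, hw, rfl⟩
    have hv' := mem_fixedSpace.mp hv
    have hw' := mem_fixedSpace.mp hw
    have hw'' : ((g⁻¹ : GL (Fin n) F) : Matrix (Fin n) (Fin n) F) *ᵥ w = w := by
      conv_lhs => rw [← hw']
      exact H99.Asch.glInv_mulVec g w
    rw [mem_fixedSpace, commutatorElement_def]
    simp only [Units.val_mul, ← Matrix.mulVec_mulVec, Matrix.toLin'_apply] at hv' ⊢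
    rw [H99.Asch.glInv_mulVec, hw'', hv']
  have h1 := Submodule.finrank_sup_add_finrank_inf_eq (fixedSpace g) W
  have h2 := Submodule.finrank_le (fixedSpace g ⊔ W)
  have h3 := Submodule.finrank_mono hle
  rw [Module.finrank_fin_fun] at h2
  omega

variable {G : Subgroup (GL (Fin n) F)}

/-- A nontrivial element of a commutative normal subgroup of a primitive group fixes no vector. -/
theorem fixedSpace_eq_bot [Nonempty (Fin n)]
    (hirr : Cfsg.Geo.ActsIrreducibly (Cfsg.Geo.matrixSet G))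
    (hprim : ¬ H99.Asch.Imprimitive G) {N : Subgroup (GL (Fin n) F)}
    (hN : ∀ h ∈ G, ∀ a ∈ N, h * a * h⁻¹ ∈ N) (hc : ∀ a ∈ N, ∀ b ∈ N, a * b = b * a)
    {z : GL (Fin n) F} (hz : z ∈ N) (hz1 : z ≠ 1) : fixedSpace z = ⊥ := by
  set A := H99.Asch.env N
  have hA : H99.Asch.Normalises G A := by
    intro h hh a ha
    rw [← Subalgebra.mem_toSubmodule, H99.Asch.env_toSubmodule] at ha ⊢
    induction ha using Submodule.span_induction with
    | mem b hb =>
      obtain ⟨c, hcN, rfl⟩ := hb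
      exact Submodule.subset_span ⟨h * c * h⁻¹, hN h hh c hcN, rfl⟩
    | zero => simp
    | add u v _ _ hu hv => rw [mul_add, add_mul]; exact Submodule.add_mem _ hu hv
    | smul r u _ hu => rw [Matrix.mul_smul, Matrix.smul_mul]; exact Submodule.smul_mem _ r hu
  have hcomm : ∀ a ∈ A, ∀ b ∈ A, a * b = b * a := fun a ha b hb =>
    congrArg Subtype.val ((Algebra.isMulCommutative_adjoin F (s := Cfsg.Geo.matrixSet N)
      (by rintro _ ⟨u, hu, rfl⟩ _ ⟨v, hv, rfl⟩; exact congrArg Units.val (hc u hu v hv))).is_comm.comm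
      (⟨a, ha⟩ : A) ⟨b, hb⟩)
  have hmem : (z : Matrix (Fin n) (Fin n) F) - 1 ∈ A := A.sub_mem (H99.Asch.coe_mem_env hz) A.one_mem
  have hne : (z : Matrix (Fin n) (Fin n) F) - 1 ≠ 0 := fun e => hz1 (Units.ext (sub_eq_zero.mp e))
  have hu := (H99.Asch.clifford hirr hprim hA).1 _ hmem (fun a ha => hcomm _ hmem a ha) hne
  rw [eq_bot_iff]
  intro v hv
  rw [mem_fixedSpace] at hv
  have h0 : ((z : Matrix (Fin n) (Fin n) F) - 1) *ᵥ v = 0 := by
    rw [Matrix.sub_mulVec, hv, Matrix.one_mulVec, sub_self]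
  rw [Submodule.mem_bot]
  exact Matrix.mulVec_injective_of_isUnit hu (h0.trans (Matrix.mulVec_zero _).symm)

/-- In a primitive soluble linear group every nontrivial element fixes at most three quarters of the
space. -/
theorem four_mul_finrank_le (hsol : Group.IsSolvable G)
    (hirr : Cfsg.Geo.ActsIrreducibly (Cfsg.Geo.matrixSet G)) (hprim : ¬ H99.Asch.Imprimitive G)
    {g : GL (Fin n) F} (hg : g ∈ G) (hg1 : g ≠ 1) :
    4 * Module.finrank F (fixedSpace g) ≤ 3 * n := by
  rcases Nat.eq_zero_or_pos n with rfl | hn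
  · have := Submodule.finrank_le (fixedSpace g)
    rw [Module.finrank_fin_fun] at this
    omega
  haveI : Nonempty (Fin n) := ⟨⟨0, hn⟩⟩
  haveI : Finite G := inferInstance
  obtain ⟨E, hEn, hE2, hEC⟩ := exists_classTwo_centralizer_le G hsol
  -- a nontrivial central element of `E` has no fixed points
  have hcent : ∀ z : G, z ∈ E → (∀ e ∈ E, e * z = z * e) → z ≠ 1 →
      fixedSpace (z : GL (Fin n) F) = ⊥ := by
    intro z hz hzc hz1
    haveI := hEn
    refine fixedSpace_eq_bot hirr hprim (N := (E ⊓ centralizer (E : Set G)).map G.subtype) ?_ ?_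
      ⟨z, ⟨hz, mem_centralizer_iff.mpr hzc⟩, rfl⟩ (fun e => hz1 (Subtype.ext e))
    · rintro h hh _ ⟨a, ha, rfl⟩
      exact ⟨⟨h, hh⟩ * a * (⟨h, hh⟩ : G)⁻¹, (inferInstance : (E ⊓ centralizer (E : Set G)).Normal).conj_mem a ha _, rfl⟩
    · rintro _ ⟨a, ha, rfl⟩ _ ⟨b, hb, rfl⟩
      exact congrArg Subtype.val (mem_centralizer_iff.mp hb.2 a ha.1)
  -- elements of `E` fix at most half
  have hhalf : ∀ c : G, c ∈ E → c ≠ 1 → 2 * Module.finrank F (fixedSpace (c : GL (Fin n) F)) ≤ n := by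
    intro c hc hc1
    by_cases hcc : ∀ e ∈ E, e * c = c * e
    · rw [hcent c hc hcc hc1, finrank_bot]; omega
    · push Not at hcc
      obtain ⟨e, he, hne⟩ := hcc
      have hmem : ⁅c, e⁆ ∈ E := by
        rw [commutatorElement_def]
        exact mul_mem (mul_mem (mul_mem hc he) (inv_mem hc)) (inv_mem he)
      have h1 : ⁅c, e⁆ ≠ 1 := fun h => hne (commutatorElement_eq_one_iff_mul_comm.mp h).symm
      have h2 : fixedSpace ⁅(c : GL (Fin n) F), (e : GL (Fin n) F)⁆ = ⊥ :=
        hcent ⁅c, e⁆ hmem (fun d hd => hE2 c hc e he d hd) h1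
      have h3 := two_mul_finrank_le (c : GL (Fin n) F) (e : GL (Fin n) F)
      rw [h2, finrank_bot] at h3
      omega
  set g' : G := ⟨g, hg⟩
  by_cases hgE : g' ∈ E
  · have := hhalf g' hgE (fun e => hg1 (congrArg Subtype.val e))
    change 2 * Module.finrank F (fixedSpace g) ≤ n at this
    omega
  obtain ⟨x, hx, hne⟩ : ∃ x ∈ E, x * g' ≠ g' * x := by
    by_contra hcon
    push Not at hcon
    exact hgE (hEC (mem_centralizer_iff.mpr hcon))
  have hmem : ⁅g', x⁆ ∈ E := by
    rw [commutatorElement_def]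
    exact mul_mem (hEn.conj_mem x hx g') (inv_mem hx)
  have h1 := hhalf ⁅g', x⁆ hmem (fun h => hne (commutatorElement_eq_one_iff_mul_comm.mp h).symm)
  change 2 * Module.finrank F (fixedSpace ⁅g, (x : GL (Fin n) F)⁆) ≤ n at h1
  have h2 := two_mul_finrank_le g (x : GL (Fin n) F)
  omega

end Cfsg.Agent.H89.FixedSpace
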