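import Mathlib
import Cfsg.Agent.H86.SolutionCount

/-!
Frobenius's theorem on the number of `n`-th roots of a class, and the case of exactly `n`
solutions of `x ^ n = 1` in a solvable group.
-/

set_option autoImplicit false

universe u

namespace Cfsg.Agent.H89

open Subgroup

/-- Roots of a central element whose order is divisible by `p`: they come in blocks of `p ^ b`. -/
theorem pow_dvd_card_roots_of_dvd_orderOf {G : Type*} [Group G] [Finite G] {p b n : ℕ}
    (hp : p.Prime) (c : G) (hc : p ∣ orderOf c) (hn : p ^ b ∣ n) :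
    p ^ b ∣ Nat.card {x : G // x ^ n = c} := by
  classical
  refine H86.dvd_card_of_fibers (fun x : {x : G // x ^ n = c} => zpowers (x : G)) _ fun X => ?_
  rcases isEmpty_or_nonempty {x : {x : G // x ^ n = c} // zpowers (x : G) = X} with h | ⟨⟨⟨x₀, hx₀⟩, hX⟩⟩
  · rw [Nat.card_of_isEmpty]; exact dvd_zero _
  change zpowers x₀ = X at hX
  subst hX
  set m := orderOf x₀ with hm
  have hm0 : 0 < m := orderOf_pos x₀
  have hpm : p ^ (b + 1) ∣ m := by
    obtain ⟨j, m', hm', hjm⟩ := Nat.exists_eq_pow_mul_and_not_dvd hm0.ne' p hp.ne_one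
    by_contra hh
    have hjb : j ≤ b := by
      by_contra hjb
      exact hh (hjm ▸ (pow_dvd_pow p (show b + 1 ≤ j by omega)).mul_right m')
    have : c ^ m' = 1 := by
      rw [← hx₀, ← pow_mul, ← orderOf_dvd_iff_pow_eq_one, ← hm, hjm]
      exact Nat.mul_dvd_mul ((pow_dvd_pow p hjb).trans hn) dvd_rfl
    exact hm' (hc.trans (orderOf_dvd_of_pow_eq_one this))
  set z₀ := x₀ ^ (m / p ^ b) with hz₀
  have hbm : p ^ b ∣ m := (pow_dvd_pow p b.le_succ).trans hpm
  have hoz : orderOf z₀ = p ^ b := orderOf_pow_orderOf_div hm0.ne' hbm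
  set Z := zpowers z₀
  refine H86.dvd_card_of_fibers (fun x : {x : {x : G // x ^ n = c} // zpowers (x : G) = zpowers x₀} =>
    (QuotientGroup.mk (s := Z) ((x : {x : G // x ^ n = c}) : G))) _ fun q => ?_
  rcases isEmpty_or_nonempty {x : {x : {x : G // x ^ n = c} // zpowers (x : G) = zpowers x₀} //
      (QuotientGroup.mk (s := Z) ((x : {x : G // x ^ n = c}) : G)) = q} with h | ⟨⟨⟨⟨x, hx⟩, hxX⟩, hxq⟩⟩
  · rw [Nat.card_of_isEmpty]; exact dvd_zero _
  change zpowers x = zpowers x₀ at hxX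
  change QuotientGroup.mk x = q at hxq
  have hox : orderOf x = m := by rw [hm, ← Nat.card_zpowers, hxX, Nat.card_zpowers]
  have hmem : ∀ z ∈ Z, (x * z) ^ n = c ∧ zpowers (x * z) = zpowers x₀ := by
    intro z hz
    have hzX : z ∈ zpowers x := hxX ▸ zpowers_le.2 (pow_mem (mem_zpowers x₀) _) hz
    have hcomm : Commute x z := by
      obtain ⟨i, rfl⟩ := mem_zpowers_iff.1 hzX
      exact (Commute.refl x).zpow_right i
    have hzp : z ^ p ^ b = 1 :=
      orderOf_dvd_iff_pow_eq_one.1 (hoz ▸ orderOf_dvd_of_mem_zpowers hz)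
    have hzk : ∀ k, p ^ b ∣ k → z ^ k = 1 := by
      rintro k ⟨t, rfl⟩; rw [pow_mul, hzp, one_pow]
    refine ⟨by rw [hcomm.mul_pow, hzk n hn, mul_one, hx], ?_⟩
    have hle : zpowers (x * z) ≤ zpowers x₀ :=
      zpowers_le.2 (hxX ▸ mul_mem (mem_zpowers x) hzX)
    refine eq_of_le_of_card_ge hle ?_
    rw [Nat.card_zpowers, Nat.card_zpowers, ← hm]
    refine le_of_eq (orderOf_eq_of_pow_and_pow_div_prime hm0 ?_ fun q hq hqm => ?_).symm
    · rw [hcomm.mul_pow, hzk m hbm, mul_one, ← hox, pow_orderOf_eq_one]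
    · rw [hcomm.mul_pow, hzk (m / q) ?_, mul_one]
      · intro h
        have := Nat.le_of_dvd (Nat.div_pos (Nat.le_of_dvd hm0 hqm) hq.pos)
          (hox ▸ orderOf_dvd_of_pow_eq_one h)
        exact absurd this (not_le.2 (Nat.div_lt_self hm0 hq.one_lt))
      · by_cases hqp : q = p
        · obtain ⟨t, ht⟩ := hpm
          rw [hqp, ht, pow_succ, show p ^ b * p * t = p * (p ^ b * t) by ring,
            Nat.mul_div_cancel_left _ hp.pos]
          exact dvd_mul_right _ _
        · obtain ⟨t, ht⟩ := hqm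
          rw [ht, Nat.mul_div_cancel_left _ hq.pos]
          exact (((Nat.coprime_primes hp hq).2 (Ne.symm hqp)).pow_left b).dvd_of_dvd_mul_left
            (ht ▸ hbm)
  refine dvd_of_eq ?_
  rw [← hoz, ← Nat.card_zpowers]
  refine Nat.card_congr
    { toFun := fun z => ⟨⟨⟨x * z, (hmem z z.2).1⟩, (hmem z z.2).2⟩, ?_⟩
      invFun := fun w => ⟨x⁻¹ * ((w.1.1 : {x : G // x ^ n = c}) : G),
        QuotientGroup.eq.1 (hxq.trans w.2.symm)⟩
      left_inv := fun z => Subtype.ext (inv_mul_cancel_left x z)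
      right_inv := fun w => Subtype.ext (Subtype.ext (Subtype.ext (mul_inv_cancel_left x _))) }
  show QuotientGroup.mk (x * (z : G)) = q
  rw [← hxq]
  exact QuotientGroup.mk_mul_of_mem x z.2

/-- For a central element `c`, `gcd(n, |G|)` divides the number of `n`-th roots of `c`. -/
theorem gcd_dvd_card_roots_of_central {G : Type u} [Group G] [Finite G] (c : G)
    (hc : ∀ g : G, Commute g c) (n : ℕ) :
    Nat.gcd n (Nat.card G) ∣ Nat.card {x : G // x ^ n = c} := by
  classical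
  refine (Nat.dvd_iff_prime_pow_dvd_dvd _ _).2 fun p b hp hpb => ?_
  by_cases hpc : p ∣ orderOf c
  · exact pow_dvd_card_roots_of_dvd_orderOf hp c hpc (hpb.trans (Nat.gcd_dvd_left _ _))
  haveI := Fact.mk hp
  obtain ⟨t, m', hm', hcard⟩ :=
    Nat.exists_eq_pow_mul_and_not_dvd (Nat.card_pos (α := G)).ne' p hp.ne_one
  obtain ⟨v, m'', hm'', hgcd⟩ := Nat.exists_eq_pow_mul_and_not_dvd
    (Nat.gcd_ne_zero_right (m := n) (Nat.card_pos (α := G)).ne') p hp.ne_one
  set r := p ^ v with hr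
  have hcm'' : Nat.Coprime p m'' := hp.coprime_iff_not_dvd.2 hm''
  have hcm' : Nat.Coprime p m' := hp.coprime_iff_not_dvd.2 hm'
  have hbr : p ^ b ∣ r := (hcm''.pow_left b).dvd_of_dvd_mul_right (hgcd ▸ hpb)
  refine hbr.trans ?_
  have hrn : r ∣ n := (hgcd ▸ dvd_mul_right r m'' : r ∣ Nat.gcd n (Nat.card G)).trans
    (Nat.gcd_dvd_left _ _)
  have hrG : r ∣ Nat.card G := (hgcd ▸ dvd_mul_right r m'' : r ∣ Nat.gcd n (Nat.card G)).trans
    (Nat.gcd_dvd_right _ _)
  have hrt : r ∣ p ^ t := ((hcm'.pow_left v)).dvd_of_dvd_mul_right (hcard ▸ hrG)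
  obtain ⟨e, he1, he2⟩ := Nat.chineseRemainder (hcm'.pow_left t) 1 0
  have hme : m' ∣ e := Nat.modEq_zero_iff_dvd.1 he2
  have hpow_m' : ∀ s : G, (orderOf s).Coprime p → s ^ m' = 1 := fun s hs =>
    orderOf_dvd_iff_pow_eq_one.1
      ((hs.pow_right t).dvd_of_dvd_mul_left (hcard ▸ orderOf_dvd_natCard s))
  have hce : c ^ e = 1 := by
    obtain ⟨w, rfl⟩ := hme
    rw [pow_mul, hpow_m' c ((hp.coprime_iff_not_dvd.2 hpc).symm), one_pow]
  let T : {s : G // s ^ n = c ∧ (orderOf s).Coprime p} → Type u :=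
    fun s => {y : G // Commute (s : G) y ∧ y ^ r = 1}
  have hfwd : ∀ x : G, x ^ n = c → (x * (x ^ e)⁻¹) ^ n = c ∧
      (orderOf (x * (x ^ e)⁻¹)).Coprime p ∧ Commute (x * (x ^ e)⁻¹) (x ^ e) ∧ (x ^ e) ^ r = 1 := by
    intro x hx
    have hxc : Commute x (x ^ e)⁻¹ := ((Commute.refl x).pow_right e).inv_right
    have hyn : (x ^ e) ^ n = 1 := by rw [← pow_mul, mul_comm, pow_mul, hx, hce]
    refine ⟨by rw [hxc.mul_pow, inv_pow, hyn, inv_one, mul_one, hx], ?_, ?_, ?_⟩
    · refine ((hcm'.symm).coprime_dvd_left (orderOf_dvd_of_pow_eq_one ?_))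
      rw [hxc.mul_pow, inv_pow, mul_inv_eq_one, ← pow_mul, pow_eq_pow_iff_modEq]
      refine Nat.ModEq.of_dvd (orderOf_dvd_natCard x) ?_
      rw [hcard]
      simpa using he1.symm.mul_right' m'
    · exact (((Commute.refl x).pow_right e)).mul_left ((Commute.refl (x ^ e)).inv_left)
    · rw [← orderOf_dvd_iff_pow_eq_one]
      obtain ⟨w, hw⟩ := hme
      have h1 : orderOf (x ^ e) ∣ p ^ t := orderOf_dvd_of_pow_eq_one (by
        rw [← pow_mul, hw, show m' * w * p ^ t = p ^ t * m' * w by ring, ← hcard, pow_mul,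
          pow_card_eq_one', one_pow])
      have h2 : orderOf (x ^ e) ∣ Nat.gcd n (Nat.card G) :=
        Nat.dvd_gcd (orderOf_dvd_of_pow_eq_one hyn) (orderOf_dvd_natCard _)
      rw [hgcd] at h2
      exact ((hcm''.pow_left t).coprime_dvd_left h1).dvd_of_dvd_mul_right h2
  have hback : ∀ s y : G, (orderOf s).Coprime p → Commute s y → y ^ r = 1 →
      (y * s) ^ e = y := by
    intro s y hs hsy hy
    obtain ⟨w, hw⟩ := hme
    rw [hsy.symm.mul_pow, show s ^ e = 1 by rw [hw, pow_mul, hpow_m' s hs, one_pow], mul_one]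
    conv_rhs => rw [← pow_one y]
    rw [pow_eq_pow_iff_modEq]
    exact Nat.ModEq.of_dvd ((orderOf_dvd_of_pow_eq_one hy).trans hrt) he1
  rw [Nat.card_congr (show {x : G // x ^ n = c} ≃ Σ s, T s from
    { toFun := fun x => ⟨⟨(x : G) * ((x : G) ^ e)⁻¹, (hfwd x x.2).1, (hfwd x x.2).2.1⟩,
        ⟨(x : G) ^ e, (hfwd x x.2).2.2.1, (hfwd x x.2).2.2.2⟩⟩
      invFun := fun sy => ⟨(sy.2.1 : G) * (sy.1 : G), by
        rw [sy.2.2.1.symm.mul_pow, sy.1.2.1, orderOf_dvd_iff_pow_eq_one.1
          ((orderOf_dvd_of_pow_eq_one sy.2.2.2).trans hrn), one_mul]⟩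
      left_inv := fun x => Subtype.ext (by
        show (x : G) ^ e * ((x : G) * ((x : G) ^ e)⁻¹) = x
        rw [(((Commute.refl (x : G)).pow_left e).mul_right ((Commute.refl _).inv_right)).eq,
          inv_mul_cancel_right])
      right_inv := fun sy => by
        obtain ⟨⟨s, hs1, hs2⟩, ⟨y, hy1, hy2⟩⟩ := sy
        have h := hback s y hs2 hy1 hy2
        refine Sigma.subtype_ext (Subtype.ext ?_) h
        show y * s * ((y * s) ^ e)⁻¹ = s
        rw [h, hy1.symm.eq, mul_inv_cancel_right] })]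
  refine H86.dvd_card_of_fibers (fun sy : Σ s, T s => ConjClasses.mk (sy.1 : G)) r fun C => ?_
  rcases isEmpty_or_nonempty {sy : Σ s, T s // ConjClasses.mk (sy.1 : G) = C} with h | ⟨⟨⟨⟨s₀, hs₀⟩, y₀⟩, hC₀⟩⟩
  · rw [Nat.card_of_isEmpty]; exact dvd_zero _
  have hC₀' : ConjClasses.mk s₀ = C := hC₀
  let F := {s : {s : G // s ^ n = c ∧ (orderOf s).Coprime p} // ConjClasses.mk (s : G) = C}
  have e3 : {sy : Σ s, T s // ConjClasses.mk (sy.1 : G) = C} ≃ Σ s : F, T s.1 :=
    { toFun := fun sy => ⟨⟨sy.1.1, sy.2⟩, sy.1.2⟩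
      invFun := fun w => ⟨⟨w.1.1, w.2⟩, w.1.2⟩
      left_inv := fun sy => rfl
      right_inv := fun w => rfl }
  have e4 : ∀ s : F, Nat.card (T s.1) = Nat.card {y : G // Commute s₀ y ∧ y ^ r = 1} := by
    intro s
    obtain ⟨g, hg⟩ := isConj_iff.1 (ConjClasses.mk_eq_mk_iff_isConj.1 (hC₀'.trans s.2.symm))
    refine (Nat.card_congr ((MulAut.conj g).toEquiv.subtypeEquiv fun y => ?_)).symm
    show Commute s₀ y ∧ y ^ r = 1 ↔ Commute (s.1 : G) (g * y * g⁻¹) ∧ (g * y * g⁻¹) ^ r = 1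
    rw [← hg]
    refine and_congr ?_ ?_
    · exact ⟨fun h => h.map (MulAut.conj g), fun h => (MulAut.conj g).injective (by
        rw [map_mul, map_mul]; exact h)⟩
    · rw [conj_pow, mul_inv_eq_one, mul_eq_left]
  have e5 : Nat.card F = (centralizer ({s₀} : Set G)).index := by
    rw [← H86.ncard_carrier_eq_index, ← Nat.card_coe_set_eq]
    refine Nat.card_congr
      { toFun := fun s => ⟨(s.1 : G), ConjClasses.mem_carrier_iff_mk_eq.2 (s.2.trans hC₀'.symm)⟩
        invFun := fun w => ⟨⟨w, ?_⟩, (ConjClasses.mem_carrier_iff_mk_eq.1 w.2).trans hC₀'⟩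
        left_inv := fun s => rfl
        right_inv := fun w => rfl }
    obtain ⟨g, hg⟩ := isConj_iff.1
      (ConjClasses.mk_eq_mk_iff_isConj.1 (ConjClasses.mem_carrier_iff_mk_eq.1 w.2).symm)
    rw [← hg]
    refine ⟨?_, ?_⟩
    · rw [conj_pow, hs₀.1, (hc g).eq, mul_inv_cancel_right]
    · rw [show orderOf (g * s₀ * g⁻¹) = orderOf s₀ from
        orderOf_injective (MulAut.conj g).toMonoidHom (MulAut.conj g).injective s₀]
      exact hs₀.2
  haveI := Fintype.ofFinite F
  rw [Nat.card_congr e3, Nat.card_sigma, Finset.sum_congr rfl (fun s _ => e4 s), Finset.sum_const,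
    smul_eq_mul, Finset.card_univ, ← Nat.card_eq_fintype_card, e5]
  exact H86.exists_quotient_count s₀ r (hs₀.2.pow_right v)
    (fun Q _ _ _ => H86.dvd_card_pow_eq_one (Nat.gcd_dvd_right _ _)) hrG

/-- The number of `n`-th roots of a class of size `h` is a multiple of `gcd(hn, |G|)`. -/
theorem gcd_dvd_card_roots_of_class {G : Type u} [Group G] [Finite G] (c : G) (n : ℕ) :
    Nat.gcd (Nat.card {y : G // IsConj c y} * n) (Nat.card G) ∣
      Nat.card {x : G // IsConj c (x ^ n)} := by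
  classical
  set C := centralizer ({c} : Set G) with hC
  have hh : Nat.card {y : G // IsConj c y} = C.index := by
    rw [← H86.ncard_carrier_eq_index, ← Nat.card_coe_set_eq]
    refine Nat.card_congr (Equiv.subtypeEquivRight fun y => ?_)
    rw [ConjClasses.mem_carrier_iff_mk_eq, ConjClasses.mk_eq_mk_iff_isConj]
    exact ⟨IsConj.symm, IsConj.symm⟩
  have hcC : c ∈ C := mem_centralizer_singleton_iff.2 rfl
  have hroot : Nat.card {x : G // x ^ n = c} = Nat.card {x : C // x ^ n = ⟨c, hcC⟩} := Nat.card_congr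
    { toFun := fun x => ⟨⟨x, mem_centralizer_singleton_iff.2
        (by have h := ((Commute.refl (x : G)).pow_right n).eq
            rwa [x.2] at h)⟩, Subtype.ext x.2⟩
      invFun := fun x => ⟨((x : C) : G), congrArg Subtype.val x.2⟩
      left_inv := fun x => rfl
      right_inv := fun x => rfl }
  have hconj : ∀ y : {y : G // IsConj c y},
      Nat.card {x : G // x ^ n = (y : G)} = Nat.card {x : G // x ^ n = c} := by
    intro y
    obtain ⟨g, hg⟩ := isConj_iff.1 y.2
    refine (Nat.card_congr ((MulAut.conj g).toEquiv.subtypeEquiv fun x => ?_)).symm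
    show x ^ n = c ↔ (g * x * g⁻¹) ^ n = (y : G)
    rw [← hg, conj_pow, mul_left_inj, mul_right_inj]
  have hcount : Nat.card {x : G // IsConj c (x ^ n)} =
      C.index * Nat.card {x : G // x ^ n = c} := by
    haveI := Fintype.ofFinite {y : G // IsConj c y}
    rw [Nat.card_congr (show {x : G // IsConj c (x ^ n)} ≃
        Σ y : {y : G // IsConj c y}, {x : G // x ^ n = (y : G)} from
      { toFun := fun x => ⟨⟨(x : G) ^ n, x.2⟩, x, rfl⟩
        invFun := fun w => ⟨w.2, by rw [w.2.2]; exact w.1.2⟩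
        left_inv := fun x => rfl
        right_inv := fun w => Sigma.subtype_ext (Subtype.ext w.2.2) rfl }), Nat.card_sigma,
      Finset.sum_congr rfl (fun y _ => hconj y), Finset.sum_const, smul_eq_mul, Finset.card_univ,
      ← Nat.card_eq_fintype_card, hh]
  rw [hcount, hh, ← C.card_mul_index, mul_comm (Nat.card C), Nat.gcd_mul_left, hroot]
  exact mul_dvd_mul_left _ (gcd_dvd_card_roots_of_central ⟨c, hcC⟩
    (fun g => Subtype.ext (mem_centralizer_singleton_iff.1 g.2)) n)

/-- A nontrivial solvable group has a nontrivial normal `p`-subgroup of exponent `p` for some `p`. -/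
theorem exists_normal_exponent_prime (G : Type*) [Group G] [Finite G] [Group.IsSolvable G]
    [Nontrivial G] : ∃ (p : ℕ) (N : Subgroup G), p.Prime ∧ N.Normal ∧ N ≠ ⊥ ∧
      ∀ x ∈ N, x ^ p = 1 := by
  classical
  obtain ⟨k, hk⟩ := (Group.isSolvable_def G).1 inferInstance
  have hex : ∃ k, derivedSeries G k = ⊥ := ⟨k, hk⟩
  have h0 : Nat.find hex ≠ 0 := fun h => by
    have := Nat.find_spec hex
    rw [h, derivedSeries_zero] at this
    exact top_ne_bot this
  obtain ⟨j, hj⟩ := Nat.exists_eq_succ_of_ne_zero h0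
  set A := derivedSeries G j
  have hA : A ≠ ⊥ := Nat.find_min hex (hj ▸ Nat.lt_succ_self j)
  have hcomm : ∀ a ∈ A, ∀ b ∈ A, a * b = b * a := by
    intro a ha b hb
    have h := Nat.find_spec hex
    rw [hj, derivedSeries_succ] at h
    exact (mem_centralizer_iff.1 (commutator_eq_bot_iff_le_centralizer.1 h hb) a ha)
  have hAn : A.Normal := inferInstance
  obtain ⟨p, hp, hpA⟩ := Nat.exists_prime_and_dvd (n := Nat.card A)
    fun h => hA (eq_bot_of_card_eq A h)
  haveI := Fact.mk hp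
  obtain ⟨x, hx⟩ := exists_prime_orderOf_dvd_card' (G := A) p hpA
  let N : Subgroup G :=
    { carrier := {g | g ∈ A ∧ g ^ p = 1}
      one_mem' := ⟨one_mem _, one_pow _⟩
      mul_mem' := fun {a b} ha hb =>
        ⟨mul_mem ha.1 hb.1, by
          rw [Commute.mul_pow (hcomm a ha.1 b hb.1), ha.2, hb.2, one_mul]⟩
      inv_mem' := fun {a} ha => ⟨inv_mem ha.1, by rw [inv_pow, ha.2, inv_one]⟩ }
  refine ⟨p, N, hp, ⟨fun g hg h => ⟨hAn.conj_mem g hg.1 h, by
    rw [conj_pow, hg.2, mul_one, mul_inv_cancel]⟩⟩, fun h => ?_, fun g hg => hg.2⟩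
  have hxN : (x : G) ∈ N :=
    ⟨x.2, by rw [← orderOf_dvd_iff_pow_eq_one, Subgroup.orderOf_coe, hx]⟩
  rw [h, mem_bot] at hxN
  rw [show x = 1 from Subtype.ext hxN, orderOf_one] at hx
  exact hp.ne_one hx.symm

theorem solution_set_aux : ∀ (B : ℕ) (G : Type u) [Group G] [Finite G] [Group.IsSolvable G],
    Nat.card G ≤ B → ∀ n : ℕ, n ∣ Nat.card G → Nat.card {x : G // x ^ n = 1} = n →
      ∃ H : Subgroup G, H.Normal ∧ (H : Set G) = {x : G | x ^ n = 1} := by
  intro B
  induction B with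
  | zero => intro G _ _ _ hG; exact absurd (Nat.card_pos (α := G)) (by omega)
  | succ B ih =>
  intro G _ _ _ hG n hn hcount
  rcases subsingleton_or_nontrivial G with hs | hnt
  · exact ⟨⊥, inferInstance, Set.ext fun x => by simp [Subsingleton.elim x 1]⟩
  obtain ⟨p, N, hp, hNn, hN, hNp⟩ := exists_normal_exponent_prime G
  haveI := hNn
  haveI := Fact.mk hp
  set π := QuotientGroup.mk' N with hπ
  have hNcard : 1 < Nat.card N := (one_lt_card_iff_ne_bot N).2 hN
  have hGN : Nat.card (G ⧸ N) * Nat.card N = Nat.card G := by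
    rw [← index_eq_card, mul_comm, card_mul_index]
  have hQ : Nat.card (G ⧸ N) ≤ B := by nlinarith [Nat.card_pos (α := G ⧸ N)]
  have hn0 : 0 < n := Nat.pos_of_dvd_of_pos hn Nat.card_pos
  have hcount' : ({x : G | x ^ n = 1} : Set G).ncard = n :=
    (Nat.card_coe_set_eq _).symm.trans hcount
  have hpre : ∀ (W : Set (G ⧸ N)), (π ⁻¹' W).ncard = Nat.card N * W.ncard := by
    intro W
    rw [← Nat.card_coe_set_eq, ← Nat.card_coe_set_eq W, ← Nat.card_prod]
    exact Nat.card_congr (QuotientGroup.preimageMkEquivSubgroupProdSet N W)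
  obtain ⟨i, hi⟩ := (IsPGroup.iff_card (p := p) (G := N)).1
    fun x => ⟨1, Subtype.ext (by simpa using hNp x x.2)⟩
  by_cases hpn : p ∣ n
  · obtain ⟨d, m', hd, hm'⟩ :=
      Nat.exists_eq_pow_mul_and_not_dvd (Nat.gcd_ne_zero_left (n := Nat.card N) hn0.ne') p hp.ne_one
    set g := Nat.gcd n (Nat.card N) with hg
    obtain ⟨m, hm⟩ := Nat.gcd_dvd_left n (Nat.card N)
    rw [← hg] at hm
    have hmQ : m ∣ Nat.card (G ⧸ N) := by
      have hl : Nat.lcm n (Nat.card N) ∣ Nat.card G := Nat.lcm_dvd hn (card_subgroup_dvd_card N)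
      have he : Nat.lcm n (Nat.card N) = m * Nat.card N := by
        have := Nat.gcd_mul_lcm n (Nat.card N)
        rw [← hg] at this
        refine Nat.eq_of_mul_eq_mul_left (Nat.gcd_pos_of_pos_left (Nat.card N) hn0) (this.trans ?_)
        rw [← hg, ← mul_assoc, ← hm]
      rw [he, ← hGN] at hl
      exact (Nat.mul_dvd_mul_iff_right Nat.card_pos).1 hl
    have hmp : m * p ∣ n := by
      rw [hm, mul_comm g m]
      exact mul_dvd_mul_left m (Nat.dvd_gcd hpn (by
        rw [hi]; exact dvd_pow_self p (fun h => by rw [hi, h] at hNcard; exact absurd hNcard (by simp))))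
    have hsub : π ⁻¹' {w | w ^ m = 1} ⊆ {x : G | x ^ n = 1} := by
      intro x hx
      have hxm : x ^ m ∈ N := (QuotientGroup.eq_one_iff _).1 (by
        rw [QuotientGroup.mk_pow]; exact hx)
      obtain ⟨t, ht⟩ := hmp
      show x ^ n = 1
      rw [ht, pow_mul, pow_mul, hNp _ hxm, one_pow]
    have hge : m ≤ ({w : G ⧸ N | w ^ m = 1} : Set _).ncard := by
      rw [← Nat.card_coe_set_eq]
      exact Nat.le_of_dvd (Nat.card_pos_iff.2 ⟨⟨⟨1, one_pow m⟩⟩, inferInstance⟩)
        (H86.dvd_card_pow_eq_one hmQ)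
    have hle := Set.ncard_le_ncard hsub (Set.toFinite _)
    rw [hpre, hcount'] at hle
    have hgN : g ≤ Nat.card N := Nat.le_of_dvd Nat.card_pos (Nat.gcd_dvd_right _ _)
    have heq : ({w : G ⧸ N | w ^ m = 1} : Set _).ncard = m := by
      have h1 : Nat.card N * ({w : G ⧸ N | w ^ m = 1} : Set _).ncard ≤ Nat.card N * m :=
        hle.trans (hm ▸ Nat.mul_le_mul_right m hgN)
      exact le_antisymm (Nat.le_of_mul_le_mul_left h1 Nat.card_pos) hge
    obtain ⟨K, hK, hKeq⟩ := ih (G ⧸ N) hQ m hmQ ((Nat.card_coe_set_eq _).trans heq)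
    refine ⟨K.comap π, hK.comap π, ?_⟩
    rw [coe_comap, hKeq]
    refine Set.eq_of_subset_of_ncard_le hsub ?_ (Set.toFinite _)
    rw [hpre, hcount', heq, hm]
    exact Nat.mul_le_mul_right m hgN
  · have hcop : Nat.Coprime n p := (hp.coprime_iff_not_dvd.2 hpn).symm
    have hnQ : n ∣ Nat.card (G ⧸ N) := by
      rw [← hGN] at hn
      exact (hi ▸ hcop.pow_right i : Nat.Coprime n (Nat.card N)).dvd_of_dvd_mul_right hn
    have hsurj : {w : G ⧸ N | w ^ n = 1} ⊆ π '' {x : G | x ^ n = 1} := by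
      intro w hw
      obtain ⟨x, rfl⟩ := QuotientGroup.mk'_surjective N w
      have hxn : x ^ n ∈ N := (QuotientGroup.eq_one_iff _).1 (by
        rw [QuotientGroup.mk_pow]; exact hw)
      obtain ⟨e, he1, he2⟩ := Nat.chineseRemainder hcop 1 0
      refine ⟨x ^ e, ?_, ?_⟩
      · obtain ⟨t, ht⟩ := Nat.modEq_zero_iff_dvd.1 he2
        show (x ^ e) ^ n = 1
        rw [← pow_mul, mul_comm, pow_mul, ht, pow_mul, hNp _ hxn, one_pow]
      · rw [map_pow]
        conv_rhs => rw [← pow_one (π x)]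
        rw [pow_eq_pow_iff_modEq]
        exact Nat.ModEq.of_dvd (orderOf_dvd_of_pow_eq_one hw) he1
    have hB : ({w : G ⧸ N | w ^ n = 1} : Set _).ncard = n := by
      refine le_antisymm ?_ ?_
      · calc _ ≤ (π '' {x : G | x ^ n = 1}).ncard := Set.ncard_le_ncard hsurj (Set.toFinite _)
          _ ≤ ({x : G | x ^ n = 1} : Set G).ncard := Set.ncard_image_le (Set.toFinite _)
          _ = n := hcount'
      · rw [← Nat.card_coe_set_eq]
        exact Nat.le_of_dvd (Nat.card_pos_iff.2 ⟨⟨⟨1, one_pow n⟩⟩, inferInstance⟩)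
          (H86.dvd_card_pow_eq_one hnQ)
    obtain ⟨K, hK, hKeq⟩ := ih (G ⧸ N) hQ n hnQ ((Nat.card_coe_set_eq _).trans hB)
    set L := K.comap π with hL
    have hLcard : Nat.card L = Nat.card N * n := by
      have := hpre (K : Set (G ⧸ N))
      rw [hKeq, hB, ← hKeq, ← coe_comap, ← hL, ← Nat.card_coe_set_eq] at this
      exact this
    have hNL : N ≤ L := fun x hx => by
      rw [hL, mem_comap, hπ, QuotientGroup.mk'_apply, (QuotientGroup.eq_one_iff x).2 hx]
      exact one_mem _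
    have hNLc : Nat.card (N.subgroupOf L) = Nat.card N :=
      Nat.card_congr (subgroupOfEquivOfLe hNL).toEquiv
    have hidx : (N.subgroupOf L).index = n := by
      have := card_mul_index (N.subgroupOf L)
      rw [hNLc, hLcard] at this
      exact Nat.eq_of_mul_eq_mul_left Nat.card_pos this
    obtain ⟨H₀, hH₀⟩ := exists_right_complement'_of_coprime (N := N.subgroupOf L) (by
      rw [hNLc, hidx, hi]
      exact (hcop.pow_right i).symm)
    set H := H₀.map L.subtype
    have hHcard : Nat.card H = n := by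
      rw [card_map_of_injective L.subtype_injective]
      have := hH₀.card_mul
      rw [hNLc, hLcard] at this
      exact Nat.eq_of_mul_eq_mul_left Nat.card_pos this
    have hHeq : (H : Set G) = {x : G | x ^ n = 1} := by
      refine Set.eq_of_subset_of_ncard_le ?_ ?_ (Set.toFinite _)
      · intro x hx
        have : ((⟨x, hx⟩ : H) : H) ^ n = 1 := hHcard ▸ pow_card_eq_one'
        simpa using congrArg Subtype.val this
      · rw [hcount', ← Nat.card_coe_set_eq]
        exact hHcard.ge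
    refine ⟨H, ⟨fun x hx g => ?_⟩, hHeq⟩
    have hx' : x ^ n = 1 := Set.ext_iff.1 hHeq x |>.1 hx
    refine (Set.ext_iff.1 hHeq _).2 ?_
    show (g * x * g⁻¹) ^ n = 1
    rw [conj_pow, hx', mul_one, mul_inv_cancel]

end Cfsg.Agent.H89
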